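import Cfsg.Agent.UnitGeo.OrthSubfieldForm
import Cfsg.Agent.UnitGeo.OrthSubfield
import Cfsg.Agent.OrthGeo.SingularTranslate

/-!
Maximality of an orthogonal subfield group in a special unitary group of dimension at least six.
In small dimension an irrational element is excluded with Siegel elements at a rational isotropic point
whose second vector need not be isotropic.
-/

set_option autoImplicit false
set_option linter.unusedSectionVars false

namespace CfsgLib.SUSix96.OrthSub

open Cfsg Module CfsgLib.Unitary CfsgLib.Subfield54 CfsgLib.UnitGeo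
open scoped Matrix MatrixGroups

variable {F : Type*} [Field F] {n q : ℕ} {F₀ : Subfield F} {P : GL (Fin n) F}

section

variable [Fintype F] (hF : Fintype.card F = q ^ 2) (hS : RStr q F₀ 1 P) (h2 : (2 : F) ≠ 0)
include hF hS h2

/-- A rational isotropic vector orthogonal to two rational vectors. -/
lemma exists_iso_perp_pair (hn : 6 ≤ n) {a b : Fin n → F} (ha : InW F₀ P a) (hb : InW F₀ P b) :
    ∃ w, InW F₀ P w ∧ hermForm n F q w w = 0 ∧ w ≠ 0 ∧ hermForm n F q w a = 0 ∧ hermForm n F q w b = 0 := by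
  obtain ⟨a, rfl⟩ := exists_emb ha
  obtain ⟨b, rfl⟩ := exists_emb hb
  set hQ := q0_nondeg hF hS h2
  obtain ⟨w, hw, hwQ, hw0, -⟩ := OrthGeo.exists_singular_avoid hQ
    (T := OrthGeo.perp hQ (Submodule.span F₀ {a} ⊔ Submodule.span F₀ {b})) (P := ⊥) (by
      have h1 := OrthGeo.finrank_perp_add hQ (Submodule.span F₀ {a} ⊔ Submodule.span F₀ {b})
      have h3 := finrank_sup_singleton_le (Submodule.span F₀ {a}) b
      have := finrank_span_singleton_le_one a
      rw [Fintype.card_fin] at h1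
      rw [finrank_bot]
      omega)
  rw [OrthGeo.mem_perp_pair hQ] at hw
  have hz : ∀ x, OrthGeo.bform hQ x w = 0 → hermForm n F q (emb P w) (emb P x) = 0 := fun x hx =>
    herm_eq_zero_comm hF (herm_eq_zero_of_bform hF hS h2 hx)
  exact ⟨_, inW_emb w, (q0_eq_zero hF hS h2).1 hwQ, emb_ne_zero hw0, hz a hw.1, hz b hw.2⟩

/-- A rational isotropic vector orthogonal to `c`, outside its line. -/
lemma exists_iso_perp (hn : 6 ≤ n) {c : Fin n → F} (hc : InW F₀ P c) :
    ∃ w, InW F₀ P w ∧ hermForm n F q w w = 0 ∧ w ≠ 0 ∧ hermForm n F q w c = 0 ∧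
      w ∉ Submodule.span F {c} := by
  obtain ⟨c, rfl⟩ := exists_emb hc
  set hQ := q0_nondeg hF hS h2
  obtain ⟨w, hw, hwQ, hw0, hwN⟩ := OrthGeo.exists_singular_avoid hQ (T := OrthGeo.perp hQ (Submodule.span F₀ {c}))
    (P := Submodule.span F₀ {c} ⊔ Submodule.span F₀ {c}) (by
      have h1 := OrthGeo.finrank_perp_add hQ (Submodule.span F₀ {c})
      have := finrank_span_singleton_le_one c
      rw [Fintype.card_fin] at h1
      rw [sup_idem]
      omega)
  exact ⟨_, inW_emb w, (q0_eq_zero hF hS h2).1 hwQ, emb_ne_zero hw0,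
    herm_eq_zero_comm hF (herm_eq_zero_of_bform hF hS h2 ((OrthGeo.mem_perp_span_singleton _).1 hw)),
    fun h => hwN (mem_span_pair_of_emb hF hS h2 (Submodule.mem_sup_left h))⟩

/-- Three rational vectors leave two independent ones modulo a fourth in their perpendicular. -/
lemma exists_two_perp (hn : 6 ≤ n) {a u v : Fin n → F} (ha : InW F₀ P a) (hu : InW F₀ P u) (hv : InW F₀ P v) :
    ∃ e e', InW F₀ P e ∧ InW F₀ P e' ∧
      (hermForm n F q e a = 0 ∧ hermForm n F q e u = 0 ∧ hermForm n F q e v = 0) ∧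
      (hermForm n F q e' a = 0 ∧ hermForm n F q e' u = 0 ∧ hermForm n F q e' v = 0) ∧
      e ∉ Submodule.span F {a} ∧ e' ∉ Submodule.span F {a} ⊔ Submodule.span F {e} := by
  obtain ⟨a, rfl⟩ := exists_emb ha
  obtain ⟨u, rfl⟩ := exists_emb hu
  obtain ⟨v, rfl⟩ := exists_emb hv
  set hQ := q0_nondeg hF hS h2
  set S := (Submodule.span F₀ {a} ⊔ Submodule.span F₀ {u}) ⊔ Submodule.span F₀ {v} with hSdef
  have hdim : 3 ≤ finrank F₀ (OrthGeo.perp hQ S) := by
    have h1 := OrthGeo.finrank_perp_add hQ S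
    have h3 := finrank_sup_singleton_le (Submodule.span F₀ {a} ⊔ Submodule.span F₀ {u}) v
    have h4 := finrank_sup_singleton_le (Submodule.span F₀ {a}) u
    have := finrank_span_singleton_le_one a
    rw [← hSdef] at h3
    rw [Fintype.card_fin] at h1
    omega
  obtain ⟨e, he, heN⟩ : ∃ e ∈ OrthGeo.perp hQ S, e ∉ Submodule.span F₀ {a} ⊔ Submodule.span F₀ {a} :=
    SetLike.not_le_iff_exists.1 fun h => by
      have h5 := Submodule.finrank_mono h
      have := finrank_span_singleton_le_one a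
      rw [sup_idem] at h5
      omega
  obtain ⟨e', he', heN'⟩ : ∃ e' ∈ OrthGeo.perp hQ S, e' ∉ Submodule.span F₀ {a} ⊔ Submodule.span F₀ {e} :=
    SetLike.not_le_iff_exists.1 fun h => by
      have h5 := Submodule.finrank_mono h
      have := finrank_span_singleton_le_one a
      have := finrank_sup_singleton_le (Submodule.span F₀ {a}) e
      omega
  have hz : ∀ x w, OrthGeo.bform hQ x w = 0 → hermForm n F q (emb P w) (emb P x) = 0 := fun x w hx =>
    herm_eq_zero_comm hF (herm_eq_zero_of_bform hF hS h2 hx)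
  rw [hSdef, OrthGeo.perp_sup hQ, Submodule.mem_inf, OrthGeo.mem_perp_pair hQ,
    OrthGeo.mem_perp_span_singleton hQ] at he he'
  exact ⟨_, _, inW_emb e, inW_emb e', ⟨hz a e he.1.1, hz u e he.1.2, hz v e he.2⟩,
    ⟨hz a e' he'.1.1, hz u e' he'.1.2, hz v e' he'.2⟩,
    fun h => heN (mem_span_pair_of_emb hF hS h2 (Submodule.mem_sup_left h)),
    fun h => heN' (mem_span_pair_of_emb hF hS h2 h)⟩

/-- A rational isotropic vector linking two rational isotropic vectors by orthogonality. -/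
lemma exists_iso_link (hn : 6 ≤ n) {c d : Fin n → F} (hc : InW F₀ P c) (hd : InW F₀ P d) (hc0 : c ≠ 0)
    (hd0 : d ≠ 0) (hcc : hermForm n F q c c = 0) (hdd : hermForm n F q d d = 0) :
    ∃ f, InW F₀ P f ∧ hermForm n F q f f = 0 ∧ hermForm n F q f c = 0 ∧ hermForm n F q f d = 0 ∧
      c ∉ Submodule.span F {f} ∧ f ∉ Submodule.span F {d} := by
  have flip : ∀ x y : Fin n → F, x ≠ 0 → x ∈ Submodule.span F {y} → y ∈ Submodule.span F {x} := fun x y hx hm => by
    obtain ⟨t, ht⟩ := Submodule.mem_span_singleton.1 hm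
    refine Submodule.mem_span_singleton.2 ⟨t⁻¹, ?_⟩
    rw [← ht, smul_smul, inv_mul_cancel₀ (fun h0 => hx (by rw [← ht, h0, zero_smul])), one_smul]
  by_cases hdc : d ∈ Submodule.span F {c}
  · obtain ⟨f, hf, hff, hf0, hfc, hfN⟩ := exists_iso_perp hF hS h2 hn hc
    obtain ⟨t, rfl⟩ := Submodule.mem_span_singleton.1 hdc
    refine ⟨f, hf, hff, hfc, by rw [herm_smul_right, hfc, mul_zero], fun h => hfN (flip _ _ hc0 h), fun h => hfN ?_⟩
    exact (Submodule.span_singleton_le_iff_mem _ _).2 hdc h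
  by_cases hcd : hermForm n F q c d = 0
  · refine ⟨c + d, hc.add hd, ?_, ?_, ?_, fun h => hdc ?_, fun h => hdc (flip _ _ hc0 ?_)⟩
    · rw [herm_add_left, herm_add_right hF, herm_add_right hF, hcc, hdd, hcd, herm_eq_zero_comm hF hcd]; simp
    · rw [herm_add_left, hcc, herm_eq_zero_comm hF hcd, add_zero]
    · rw [herm_add_left, hdd, hcd, add_zero]
    · have := flip _ _ hc0 h
      rwa [← Submodule.add_mem_iff_right _ (Submodule.mem_span_singleton_self c)]
    · rwa [← Submodule.add_mem_iff_left _ (Submodule.mem_span_singleton_self d)]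
  obtain ⟨f, hf, hff, hf0, hfc, hfd⟩ := exists_iso_perp_pair hF hS h2 hn hc hd
  refine ⟨f, hf, hff, hfc, hfd, fun h => ?_, fun h => ?_⟩
  · obtain ⟨t, rfl⟩ := Submodule.mem_span_singleton.1 h
    exact hcd (by rw [herm_smul_left, hfd, mul_zero])
  · obtain ⟨t, rfl⟩ := Submodule.mem_span_singleton.1 h
    rw [herm_smul_left, mul_eq_zero] at hfc
    rcases hfc with h0 | h0
    · exact hf0 (by rw [h0, zero_smul])
    · exact hcd (herm_eq_zero_comm hF h0)

/-- A rational isotropic vector orthogonal to `d` pairing to one with `c`. -/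
lemma exists_iso_partner (hn : 6 ≤ n) {c d : Fin n → F} (hc : InW F₀ P c) (hd : InW F₀ P d)
    (hcd : c ∉ Submodule.span F {d}) :
    ∃ e, InW F₀ P e ∧ hermForm n F q e e = 0 ∧ hermForm n F q e d = 0 ∧ hermForm n F q c e = 1 := by
  obtain ⟨c, rfl⟩ := exists_emb hc
  obtain ⟨d, rfl⟩ := exists_emb hd
  obtain ⟨e, he, heQ, hce⟩ := OrthGeo.exists_singular_b_one_four (q0_nondeg hF hS h2) (Submodule.span F₀ {d})
    (c := c) (fun hm => by
      obtain ⟨t, rfl⟩ := Submodule.mem_span_singleton.1 hm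
      exact hcd (Submodule.mem_span_singleton.2 ⟨t, (emb_smul t d).symm⟩)) (by
      have := finrank_span_singleton_le_one d
      rw [Fintype.card_fin]
      omega)
  rw [OrthGeo.mem_perp_span_singleton] at he
  refine ⟨_, inW_emb e, (q0_eq_zero hF hS h2).1 heQ, herm_eq_zero_comm hF (herm_eq_zero_of_bform hF hS h2 he), ?_⟩
  rw [← bform_q0 hF hS h2, hce]; rfl

/-- The rational vectors orthogonal to a rational vector are sums of isotropic ones. -/
lemma iso_induction (hn : 6 ≤ n) {c : Fin n → F} (hc : InW F₀ P c) (motive : (Fin n → F) → Prop)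
    (hadd : ∀ u v, InW F₀ P u → InW F₀ P v → motive u → motive v → motive (u + v))
    (hs : ∀ u, InW F₀ P u → hermForm n F q u c = 0 → hermForm n F q u u = 0 → motive u)
    {w : Fin n → F} (hw : InW F₀ P w) (hwc : hermForm n F q w c = 0) : motive w := by
  obtain ⟨c, rfl⟩ := exists_emb hc
  obtain ⟨w, rfl⟩ := exists_emb hw
  refine OrthGeo.perp_induction (q0_nondeg hF hS h2) (Submodule.span F₀ {c}) (by
      have := finrank_span_singleton_le_one c
      rw [Fintype.card_fin]
      omega) (fun u => motive (emb P u)) (fun u _ v _ h h' => ?_) (fun s hs' hsQ => ?_) ?_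
  · show motive (emb P (u + v))
    rw [emb_add]
    exact hadd _ _ (inW_emb u) (inW_emb v) h h'
  · exact hs _ (inW_emb s) (herm_eq_zero_comm hF (herm_eq_zero_of_bform hF hS h2
      ((OrthGeo.mem_perp_span_singleton _).1 hs'))) ((q0_eq_zero hF hS h2).1 hsQ)
  · exact (OrthGeo.mem_perp_span_singleton _).2 (bform_eq_zero_of_herm hF hS h2 (herm_eq_zero_comm hF hwc))

/-- An isotropic rational vector with prescribed products with a non-degenerate pair. -/
lemma exists_iso_prescribed (hn : 6 ≤ n) {a b : Fin n → F} (ha : InW F₀ P a) (hb : InW F₀ P b)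
    (hD : hermForm n F q a a * hermForm n F q b b - hermForm n F q a b ^ 2 ≠ 0) {w₁ w₂ : F} (h₁ : w₁ ∈ F₀)
    (h₂ : w₂ ∈ F₀) :
    ∃ e, InW F₀ P e ∧ hermForm n F q e e = 0 ∧ hermForm n F q a e = w₁ ∧ hermForm n F q b e = w₂ := by
  set D := hermForm n F q a a * hermForm n F q b b - hermForm n F q a b ^ 2 with hDdef
  set x₁ := (w₁ * hermForm n F q b b - w₂ * hermForm n F q a b) / D with hx₁
  set x₂ := (w₂ * hermForm n F q a a - w₁ * hermForm n F q a b) / D with hx₂
  have hr := @rat_one F _ n q F₀ P _ hF hS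
  have hDm : D ∈ F₀ := F₀.sub_mem (F₀.mul_mem (hr ha ha) (hr hb hb)) (pow_mem (hr ha hb) 2)
  have hm₁ : x₁ ∈ F₀ := F₀.div_mem (F₀.sub_mem (F₀.mul_mem h₁ (hr hb hb)) (F₀.mul_mem h₂ (hr ha hb))) hDm
  have hm₂ : x₂ ∈ F₀ := F₀.div_mem (F₀.sub_mem (F₀.mul_mem h₂ (hr ha ha)) (F₀.mul_mem h₁ (hr ha hb))) hDm
  obtain ⟨a', rfl⟩ := exists_emb ha
  obtain ⟨b', rfl⟩ := exists_emb hb
  set hQ := q0_nondeg hF hS h2
  obtain ⟨z, hz, hzQ⟩ := OrthGeo.exists_translate_of_plane hQ (Submodule.span F₀ {a'} ⊔ Submodule.span F₀ {b'}) (by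
      have := Submodule.finrank_mono (inf_le_left (a := Submodule.span F₀ {a'} ⊔ Submodule.span F₀ {b'})
        (b := OrthGeo.perp hQ (Submodule.span F₀ {a'} ⊔ Submodule.span F₀ {b'})))
      have := finrank_sup_singleton_le (Submodule.span F₀ {a'}) b'
      have := finrank_span_singleton_le_one a'
      rw [Fintype.card_fin]
      omega) ((⟨x₁, hm₁⟩ : F₀) • a' + (⟨x₂, hm₂⟩ : F₀) • b')
  rw [OrthGeo.mem_perp_pair hQ] at hz
  refine ⟨_, inW_emb _, (q0_eq_zero hF hS h2).1 hzQ, ?_, ?_⟩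
  · rw [emb_add, emb_add, emb_smul, emb_smul, herm_add_right hF, herm_add_right hF, herm_smul_right,
      herm_smul_right, herm_eq_zero_of_bform hF hS h2 hz.1, pow_q_of_mem hF hS hm₁, pow_q_of_mem hF hS hm₂,
      add_zero]
    rw [hx₁, hx₂, div_mul_eq_mul_div, div_mul_eq_mul_div, ← add_div, div_eq_iff hD, hDdef]
    ring
  · rw [emb_add, emb_add, emb_smul, emb_smul, herm_add_right hF, herm_add_right hF, herm_smul_right,
      herm_smul_right, herm_eq_zero_of_bform hF hS h2 hz.2, pow_q_of_mem hF hS hm₁, pow_q_of_mem hF hS hm₂,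
      add_zero, herm_symm_one hF hS (inW_emb a') (inW_emb b')]
    rw [hx₁, hx₂, div_mul_eq_mul_div, div_mul_eq_mul_div, ← add_div, div_eq_iff hD, hDdef]
    ring


end

variable [Fintype F] (hF : Fintype.card F = q ^ 2) (hS : RStr q F₀ 1 P) (h2 : (2 : F) ≠ 0) (hn : 6 ≤ n)
variable {M : Subgroup (GL (Fin n) F)} (hH : SubH q F₀ P ≤ M) (hM : M ≤ SUGL n F q)

include hF hS

include h2

include hn hH

lemma rootMem {a b : Fin n → F} (ha : InW F₀ P a) (hb : InW F₀ P b) (haa : hermForm n F q a a = 0)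
    (hbb : hermForm n F q b b = 0) (hab : hermForm n F q a b = 0) {t : F} (ht : t ∈ F₀) :
    MIn M (rMat q a (t • b)) := by
  have := (rMat_rat hF hS ha hb haa hbb hab ht).mono hH
  rwa [mul_one] at this

lemma rootMem_one {a b : Fin n → F} (ha : InW F₀ P a) (hb : InW F₀ P b) (haa : hermForm n F q a a = 0)
    (hbb : hermForm n F q b b = 0) (hab : hermForm n F q a b = 0) : MIn M (rMat q a b) := by
  simpa using rootMem hF hS h2 hn hH ha hb haa hbb hab F₀.one_mem

/-- A Siegel element at a rational isotropic point. -/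
lemma exists_siegel {a e : Fin n → F} (ha : InW F₀ P a) (haa : hermForm n F q a a = 0) (he : InW F₀ P e)
    (hea : hermForm n F q e a = 0) : ∃ c : F, ∃ r ∈ M, ∀ x, (r : Matrix (Fin n) (Fin n) F) *ᵥ x =
      x + hermForm n F q x a • e - hermForm n F q x e • a + (c * hermForm n F q x a) • a := by
  suffices hermForm n F q e a = 0 ∧ ∃ c : F, ∃ r ∈ M, ∀ x, (r : Matrix (Fin n) (Fin n) F) *ᵥ x =
      x + hermForm n F q x a • e - hermForm n F q x e • a + (c * hermForm n F q x a) • a from this.2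
  refine iso_induction hF hS h2 hn ha (fun e => hermForm n F q e a = 0 ∧ ∃ c : F, ∃ r ∈ M,
    ∀ x, (r : Matrix (Fin n) (Fin n) F) *ᵥ x =
      x + hermForm n F q x a • e - hermForm n F q x e • a + (c * hermForm n F q x a) • a)
    (fun u v _ _ hu hv => ?_) (fun u hu hua huu => ?_) he hea
  · obtain ⟨hua, c, r, hr, er⟩ := hu
    obtain ⟨hva, c', r', hr', er'⟩ := hv
    refine ⟨by rw [herm_add_left, hua, hva, add_zero], c + c' - hermForm n F q v u, r * r', M.mul_mem hr hr',
      fun x => ?_⟩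
    rw [Units.val_mul, ← Matrix.mulVec_mulVec, er', er]
    simp only [herm_add_left, herm_sub_left, herm_smul_left, herm_add_right hF, hva, haa,
      herm_eq_zero_comm hF hua]
    module
  · obtain ⟨r, hr, er⟩ := rootMem_one hF hS h2 hn hH ha hu haa huu (herm_eq_zero_comm hF hua)
    exact ⟨hua, 0, r, hr, fun x => by rw [er, rMat_mulVec haa]; simp⟩

include hM

lemma form_of_mem {g : GL (Fin n) F} (hg : g ∈ M) (x y : Fin n → F) :
    hermForm n F q ((g : Matrix (Fin n) (Fin n) F) *ᵥ x) ((g : Matrix (Fin n) (Fin n) F) *ᵥ y) = hermForm n F q x y :=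
  (hM hg).1 x y

lemma mulVec_ne_zero_of_mem {g : GL (Fin n) F} {v : Fin n → F} (hv : v ≠ 0) :
    (g : Matrix (Fin n) (Fin n) F) *ᵥ v ≠ 0 := fun h => hv (by
  have := mulVec_inv_P g v
  rwa [h, Matrix.mulVec_zero, eq_comm] at this)

/-- Without rational transvections in `M`, an element taking a rational isotropic point to a rational point is
rational on its orthogonal. -/
lemma image_rat (hno : ∀ c, InW F₀ P c → c ≠ 0 → hermForm n F q c c = 0 →
      ∀ k, k + k ^ q = 0 → MIn M (tMat q c k) → k = 0)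
    {g : GL (Fin n) F} (hg : g ∈ M) {c c' : Fin n → F} (hc : InW F₀ P c) (hc' : InW F₀ P c') (hc0 : c ≠ 0)
    (hcc : hermForm n F q c c = 0) {l : F} (e : (g : Matrix (Fin n) (Fin n) F) *ᵥ c = l • c')
    {d : Fin n → F} (hd : InW F₀ P d) (hdc : hermForm n F q d c = 0) :
    InW F₀ P (l ^ q • (g : Matrix (Fin n) (Fin n) F) *ᵥ d) := by
  obtain ⟨δ, hδ⟩ := exists_delta hF hS
  have hgf := form_of_mem hF hS h2 hn hH hM hg
  have hgc0 := mulVec_ne_zero_of_mem (g := g) hF hS h2 hn hH hM hc0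
  have hl0 : l ≠ 0 := fun h0 => hgc0 (by rw [e, h0, zero_smul])
  have hc'0 : c' ≠ 0 := fun h0 => hgc0 (by rw [e, h0, smul_zero])
  have hc'c' : hermForm n F q c' c' = 0 := by
    have h := (hgf c c).trans hcc
    rw [e, herm_self_smul] at h
    exact (mul_eq_zero.1 h).resolve_left (pow_ne_zero _ hl0)
  refine iso_induction hF hS h2 hn hc (fun u => InW F₀ P (l ^ q • (g : Matrix (Fin n) (Fin n) F) *ᵥ u))
    (fun u v _ _ hu hv => ?_) (fun u hu huc huu => ?_) hd hdc
  · rw [Matrix.mulVec_add, smul_add]; exact hu.add hv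
  set y := l ^ q • (g : Matrix (Fin n) (Fin n) F) *ᵥ u with hy
  have hyy : hermForm n F q y y = 0 := by rw [hy, herm_self_smul, hgf, huu, mul_zero]
  have hgu : hermForm n F q ((g : Matrix (Fin n) (Fin n) F) *ᵥ u) c' = 0 := by
    have h := (hgf u c).trans huc
    rw [e, herm_smul_right] at h
    exact (mul_eq_zero.1 h).resolve_left (pow_ne_zero _ hl0)
  have hyc : hermForm n F q y c' = 0 := by rw [hy, herm_smul_left, hgu, mul_zero]
  have hcy := herm_eq_zero_comm hF hyc
  obtain ⟨r, hr, er⟩ := rootMem_one hF hS h2 hn hH hc hu hcc huu (herm_eq_zero_comm hF huc)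
  have hm : MIn M (rMat q c' y) := ⟨g * r * g⁻¹, M.mul_mem (M.mul_mem hg hr) (M.inv_mem hg), by
    rw [Units.val_mul, Units.val_mul, er, conj_rMat hF hgf _ hcc, e, rMat_smul_left hF hc'c']⟩
  have hval : ∀ d', InW F₀ P d' → hermForm n F q d' c' = 0 → hermForm n F q y d' ∈ F₀ := by
    intro d' hd' hd'c
    refine iso_induction hF hS h2 hn hc' (fun x => hermForm n F q y x ∈ F₀)
      (fun x z _ _ hx hz => by rw [herm_add_right hF]; exact F₀.add_mem hx hz) (fun x hx hxc hxx => ?_) hd' hd'c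
    obtain ⟨s, hs, es⟩ := rootMem_one hF hS h2 hn hH hc' hx hc'c' hxx (herm_eq_zero_comm hF hxc)
    obtain ⟨r', hr', er'⟩ := id hm
    have h1 : MIn M (rMat q c' (y + (-hermForm n F q y x) • c')) := ⟨s * r' * s⁻¹,
      M.mul_mem (M.mul_mem hs hr') (M.inv_mem hs), by
        rw [Units.val_mul, Units.val_mul, er', conj_rMat hF (form_of_mem hF hS h2 hn hH hM hs) _ hc'c', es,
          rMat_mulVec hc'c', rMat_mulVec hc'c', hc'c', herm_eq_zero_comm hF hxc, hyc]
        simp [sub_eq_add_neg, neg_smul]⟩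
    rw [rMat_add_smul hF hc'c' hcy] at h1
    have h3 := (hm.of_mul_eq_one (rMat_neg_mul hF hc'c' hyy hcy)).mul h1
    rw [← mul_assoc, rMat_neg_mul hF hyy hc'c' hyc, one_mul] at h3
    have h4 := hno c' hc' hc'0 hc'c' _ (by rw [sub_pow_q hF, pow_q_q hF]; ring) h3
    refine (hS.fix _).2 ?_
    rw [neg_pow_q hF] at h4
    linear_combination h4
  obtain ⟨a, b, ha, hb, hy', -⟩ := exists_decomp hF hS hδ y
  obtain ⟨hac, hbc⟩ := comp_perp hF hS hδ ha hb hc' (hy' ▸ hyc)
  have hbperp : ∀ d', InW F₀ P d' → hermForm n F q d' c' = 0 → hermForm n F q d' b = 0 := by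
    intro d' hd' hd'c
    have h := hval d' hd' hd'c
    rw [hy', herm_add_left, herm_smul_left] at h
    exact herm_eq_zero_comm hF (split_eq_zero hF hS hδ (F₀.sub_mem (rat_one hF hS ha hd') h)
      (rat_one hF hS hb hd') (by ring)).2
  obtain ⟨k, hk⟩ := mem_line_of_perp hF hS hc' hc'0 hbperp
  have haa : hermForm n F q a a = 0 := by
    have h := hyy
    rw [hy', hk] at h
    simpa [herm_add_left, herm_add_right hF, herm_smul_left, herm_smul_right, hc'c', hac,
      herm_eq_zero_comm hF hac] using h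
  have hm' : MIn M (rMat q c' (a + (δ * k) • c')) := by rwa [mul_smul, ← hk, ← hy']
  rw [rMat_add_smul hF hc'c' (herm_eq_zero_comm hF hac)] at hm'
  have h3 := ((rootMem_one hF hS h2 hn hH hc' ha hc'c' haa (herm_eq_zero_comm hF hac)).of_mul_eq_one
    (rMat_neg_mul hF hc'c' haa (herm_eq_zero_comm hF hac))).mul hm'
  rw [← mul_assoc, rMat_neg_mul hF haa hc'c' hac, one_mul] at h3
  have h4 := hno c' hc' hc'0 hc'c' _ (by rw [sub_pow_q hF, pow_q_q hF]; ring) h3
  show InW F₀ P y
  rw [hy', hk, smul_smul]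
  exact ha.add (hc'.smul ((hS.fix _).2 (by linear_combination -h4)))

/-- Without rational transvections in `M`, only rational elements fix a rational isotropic point. -/
lemma rational_of_line (hno : ∀ c, InW F₀ P c → c ≠ 0 → hermForm n F q c c = 0 →
      ∀ k, k + k ^ q = 0 → MIn M (tMat q c k) → k = 0)
    {g : GL (Fin n) F} (hg : g ∈ M) {c c' : Fin n → F} (hc : InW F₀ P c) (hc' : InW F₀ P c') (hc0 : c ≠ 0)
    (hcc : hermForm n F q c c = 0) {l : F} (e : (g : Matrix (Fin n) (Fin n) F) *ᵥ c = l • c') :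
    g ∈ Cfsg.Geo.subfieldSubgroup F₀ P := by
  have hl0 : l ≠ 0 := fun h0 => mulVec_ne_zero_of_mem (g := g) hF hS h2 hn hH hM hc0 (by rw [e, h0, zero_smul])
  have hN : l ^ (q + 1) ∈ F₀ := (hS.fix _).2 (norm_pow_q hF l)
  have conv : ∀ (l' : F), l' ≠ 0 → ∀ u, InW F₀ P (l' ^ q • u) →
      ∃ w, InW F₀ P w ∧ u = l' • w := fun l' hl' u hu =>
    ⟨(l' ^ (q + 1))⁻¹ • (l' ^ q • u), hu.smul (F₀.inv_mem ((hS.fix _).2 (norm_pow_q hF l'))), by
      rw [smul_smul, smul_smul, pow_succ]; field_simp; rw [one_smul]⟩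
  obtain ⟨d, hd, hdd, hd0, hdc, hdN⟩ := exists_iso_perp hF hS h2 hn hc
  obtain ⟨u, hu, eu⟩ := conv l hl0 _ (image_rat hF hS h2 hn hH hM hno hg hc hc' hc0 hcc e hd hdc)
  refine mem_subfield_of_lines fun v hv => ?_
  obtain ⟨z, hz, -, hzd, hcz⟩ := exists_iso_partner hF hS h2 hn hc hd (fun hm => by
    obtain ⟨t, ht⟩ := Submodule.mem_span_singleton.1 hm
    refine hdN (Submodule.mem_span_singleton.2 ⟨t⁻¹, ?_⟩)
    rw [← ht, smul_smul, inv_mul_cancel₀ (fun h0 => hc0 (by rw [← ht, h0, zero_smul])), one_smul])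
  have hvc : hermForm n F q v c ∈ F₀ := rat_one hF hS hv hc
  obtain ⟨w₁, hw₁, e₁⟩ := conv l hl0 _ (image_rat hF hS h2 hn hH hM hno hg hc hc' hc0 hcc e
    (hv.sub (hz.smul hvc)) (by
      rw [herm_sub_left, herm_smul_left, show hermForm n F q z c = 1 from (herm_symm_one hF hS hc hz).trans hcz,
        mul_one, sub_self]))
  obtain ⟨w₂, hw₂, e₂⟩ := conv l hl0 _ (image_rat hF hS h2 hn hH hM hno hg hd hu hd0 hdd eu
    (hz.smul hvc) (by rw [herm_smul_left, hzd, mul_zero]))
  refine ⟨l, w₁ + w₂, hw₁.add hw₂, ?_⟩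
  rw [smul_add, ← e₁, ← e₂, ← Matrix.mulVec_add, sub_add_cancel]

/-- A subgroup properly above the subfield group contains a transvection at a rational point. -/
lemma exists_rational_transv (hMH : ¬ M ≤ SubH q F₀ P) :
    ∃ c k, InW F₀ P c ∧ c ≠ 0 ∧ hermForm n F q c c = 0 ∧ k ≠ 0 ∧ k + k ^ q = 0 ∧ MIn M (tMat q c k) := by
  by_contra hc
  push Not at hc
  have hno : ∀ c, InW F₀ P c → c ≠ 0 → hermForm n F q c c = 0 →
      ∀ k, k + k ^ q = 0 → MIn M (tMat q c k) → k = 0 :=
    fun c h1 h2' h3 k hk hm => by_contra fun h0 => hc c k h1 h2' h3 h0 hk hm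
  obtain ⟨g, hgM, hgH⟩ := SetLike.not_le_iff_exists.1 hMH
  obtain ⟨δ, hδ⟩ := exists_delta hF hS
  have hgf := form_of_mem hF hS h2 hn hH hM hgM
  obtain ⟨a, ha, haa, ha0, -⟩ := exists_iso_perp hF hS h2 hn (c := 0) inW_zero
  set G := (g : Matrix (Fin n) (Fin n) F) with hG
  obtain ⟨A, B, hA, hB, eA, -⟩ := exists_decomp hF hS hδ (G *ᵥ a)
  obtain ⟨w, hw, hww, hw0, hwA, hwB⟩ := exists_iso_perp_pair hF hS h2 hn hA hB
  have hwga : hermForm n F q w (G *ᵥ a) = 0 := by
    rw [eA, herm_add_right hF, herm_smul_right, hwA, hwB, mul_zero, add_zero]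
  set u := ((g⁻¹ : GL (Fin n) F) : Matrix (Fin n) (Fin n) F) *ᵥ w with hu
  have hGu : G *ᵥ u = w := by rw [hu, hG, mulVec_P_inv]
  have hua : hermForm n F q u a = 0 := by rw [← hgf u a, hGu, hwga]
  obtain ⟨U, U', hU, hU', eU, -⟩ := exists_decomp hF hS hδ u
  obtain ⟨b, b', hb, hb', ⟨hba, hbU, hbU'⟩, ⟨hba', hb'U, hb'U'⟩, hbN, hbN'⟩ :=
    exists_two_perp hF hS h2 hn ha hU hU'
  have plane : ∀ e, InW F₀ P e → hermForm n F q e a = 0 → hermForm n F q e U = 0 → hermForm n F q e U' = 0 →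
      e ∉ Submodule.span F {a} → ∃ s t : F, sigma q P (G *ᵥ a) = s • G *ᵥ e + t • G *ᵥ a := by
    intro e he hea heU heU' heN
    obtain ⟨c, r, hr, er⟩ := exists_siegel hF hS h2 hn hH ha haa he hea
    set x := g * r * g⁻¹ with hx
    have hxM : x ∈ M := M.mul_mem (M.mul_mem hgM hr) (M.inv_mem hgM)
    have hxG : ∀ v, (x : Matrix (Fin n) (Fin n) F) *ᵥ (G *ᵥ v) = G *ᵥ ((r : Matrix (Fin n) (Fin n) F) *ᵥ v) := by
      intro v
      rw [hx, Units.val_mul, Units.val_mul, ← Matrix.mulVec_mulVec, ← Matrix.mulVec_mulVec, hG, mulVec_inv_P]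
    have hue : hermForm n F q u e = 0 := by
      rw [eU, herm_add_left, herm_smul_left, herm_eq_zero_comm hF heU, herm_eq_zero_comm hF heU', mul_zero, add_zero]
    have hxw : (x : Matrix (Fin n) (Fin n) F) *ᵥ w = w := by
      rw [← hGu, hxG, er, hua, hue]
      simp
    have hp := preserves_of_fix hF hS (rational_of_line hF hS h2 hn hH hM hno hxM hw hw hw0 hww
      (hxw.trans (one_smul F w).symm)) hw hw0 hxw
    obtain ⟨y, -, -, hya, hey⟩ := exists_iso_partner hF hS h2 hn he ha heN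
    set z := G *ᵥ (-y) with hz
    have hxz : (x : Matrix (Fin n) (Fin n) F) *ᵥ z = z + G *ᵥ a := by
      rw [hz, hxG, er, herm_neg_left, herm_neg_left, hya, herm_conj hF e y, hey, one_pow, ← Matrix.mulVec_add]
      simp
    have h5 := sigma_comm hF hS hp z
    rw [hxz, sigma_add hF] at h5
    set v := ((g⁻¹ : GL (Fin n) F) : Matrix (Fin n) (Fin n) F) *ᵥ sigma q P z
    have hv : sigma q P z = G *ᵥ v := by rw [hG, mulVec_P_inv]
    rw [hv, hxG, er] at h5
    exact ⟨hermForm n F q v a, c * hermForm n F q v a - hermForm n F q v e, by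
      simp only [Matrix.mulVec_add, Matrix.mulVec_sub, Matrix.mulVec_smul] at h5
      linear_combination (norm := module) h5⟩
  obtain ⟨s₁, t₁, e₁⟩ := plane b hb hba hbU hbU' hbN
  obtain ⟨s₂, t₂, e₂⟩ := plane b' hb' hba' hb'U hb'U' (fun h => hbN' (Submodule.mem_sup_left h))
  have h6 : s₂ • b' = s₁ • b + (t₁ - t₂) • a := by
    have h7 : G *ᵥ (s₂ • b') = G *ᵥ (s₁ • b + (t₁ - t₂) • a) := by
      rw [Matrix.mulVec_smul, Matrix.mulVec_add, Matrix.mulVec_smul, Matrix.mulVec_smul]
      have := e₁.symm.trans e₂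
      linear_combination (norm := module) -this
    have := congrArg (((g⁻¹ : GL (Fin n) F) : Matrix (Fin n) (Fin n) F) *ᵥ ·) h7
    simpa [hG, mulVec_inv_P] using this
  have hs₂ : s₂ = 0 := by
    by_contra hs
    refine hbN' ?_
    rw [show b' = s₂⁻¹ • (s₂ • b') by rw [smul_smul, inv_mul_cancel₀ hs, one_smul], h6]
    exact Submodule.smul_mem _ _ (Submodule.add_mem _
      (Submodule.mem_sup_right (Submodule.smul_mem _ _ (Submodule.mem_span_singleton_self b)))
      (Submodule.mem_sup_left (Submodule.smul_mem _ _ (Submodule.mem_span_singleton_self a))))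
  rw [hs₂, zero_smul, zero_add] at e₂
  obtain ⟨s, w, hw, ew⟩ := line_of_sigma hF hS e₂
  exact hgH ⟨rational_of_line hF hS h2 hn hH hM hno hgM ha hw ha0 haa ew, hM hgM⟩

/-- A rational transvection spreads to all rational isotropic points orthogonal to its centre. -/
lemma good_step {c d : Fin n → F} (hc : InW F₀ P c) (hd : InW F₀ P d) (hcc : hermForm n F q c c = 0)
    (hdd : hermForm n F q d d = 0) (hdc : hermForm n F q d c = 0) (hind : c ∉ Submodule.span F {d})
    {k : F} (hk0 : k ≠ 0) (hk : k + k ^ q = 0) (h : MIn M (tMat q c k)) : GoodCentre q M d := by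
  intro k' hk'
  obtain ⟨e, he, hee, hed, hce⟩ := exists_iso_partner hF hS h2 hn hc hd hind
  have hcd := herm_eq_zero_comm hF hdc
  have key : ∀ α ∈ F₀, MIn M (tMat q (c + α • d) k) := by
    intro α hα
    obtain ⟨g, hg, eg⟩ := rootMem hF hS h2 hn hH he hd hee hdd hed hα
    obtain ⟨r, hr, er⟩ := h
    refine ⟨g * r * g⁻¹, M.mul_mem (M.mul_mem hg hr) (M.inv_mem hg), ?_⟩
    rw [Units.val_mul, Units.val_mul, er, conj_tMat hF (form_of_mem hF hS h2 hn hH hM hg), eg, rMat_mulVec hee,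
      herm_smul_right, hcd, hce]
    simp
  have hneg : ∀ α ∈ F₀, MIn M (tMat q (c + α • d) (-k)) := fun α hα => (key α hα).of_mul_eq_one (by
    rw [tMat_mul hF (by simp [herm_add_left, herm_add_right hF, herm_smul_left, herm_smul_right, hcc, hdd, hcd, hdc]),
      add_neg_cancel, tMat_zero hF])
  set α := k' / (2 * k) with hα
  have hαm : α ∈ F₀ := by
    refine (hS.fix _).2 ?_
    rw [hα, div_pow, mul_pow, pow_q_of_mem hF hS two_mem, show k ^ q = -k by linear_combination hk,
      show k' ^ q = -k' by linear_combination hk', mul_neg, neg_div_neg_eq]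
  have h1 := (((key (α + 1) (F₀.add_mem hαm F₀.one_mem)).mul (hneg α hαm)).mul (by
    simpa using hneg 1 F₀.one_mem : MIn M (tMat q (c + d) (-k)))).mul h
  rw [tMat_polar hF hcc hdd hcd, pow_q_of_mem hF hS hαm] at h1
  rwa [show k * (α + α) = k' by rw [hα]; field_simp; ring] at h1

lemma good_rational {c : Fin n → F} (hc : InW F₀ P c) (hc0 : c ≠ 0) (hcc : hermForm n F q c c = 0)
    {k : F} (hk0 : k ≠ 0) (hk : k + k ^ q = 0) (h : MIn M (tMat q c k)) {d : Fin n → F} (hd : InW F₀ P d)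
    (hdd : hermForm n F q d d = 0) : GoodCentre q M d := by
  by_cases hd0 : d = 0
  · intro k' _
    exact ⟨1, M.one_mem, by
      rw [hd0]; exact matrix_ext fun x => by rw [tMat_mulVec, smul_zero, add_zero]; simp⟩
  obtain ⟨f, hf, hff, hfc, hfd, hcf, hfd'⟩ := exists_iso_link hF hS h2 hn hc hd hc0 hd0 hcc hdd
  have hgf := good_step hF hS h2 hn hH hM hc hf hcc hff hfc hcf hk0 hk h k hk
  exact good_step hF hS h2 hn hH hM hf hd hff hdd (herm_eq_zero_comm hF hfd) hfd' hk0 hk hgf

/-- With all rational transvections, `M` is the whole special unitary group. -/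
lemma le_of_good_rational (hgood : ∀ d, InW F₀ P d → hermForm n F q d d = 0 → GoodCentre q M d) :
    SUGL n F q ≤ M := by
  obtain ⟨δ, hδ0, hδq⟩ := exists_skew hF
  have hδ := not_mem_of_skew hF hS h2 hδ0 hδq
  have base : ∀ v, hermForm n F q v v = 0 → hermForm n F q v (sigma q P v) = 0 → GoodCentre q M v := by
    intro v hv hz
    obtain ⟨a, b, ha, hb, rfl, hs⟩ := exists_decomp hF hS hδ v
    rw [hs] at hz
    simp only [herm_add_left, herm_add_right hF, herm_smul_left, herm_smul_right, hδq, neg_pow_q hF,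
      herm_symm_one hF hS ha hb] at hv hz
    obtain ⟨h1, h3⟩ := split_eq_zero hF hS hδ (rat_one hF hS ha ha) (rat_one hF hS ha hb)
      (mul_left_cancel₀ h2 (by linear_combination hv + hz))
    have h4 : hermForm n F q b b = 0 := by
      rw [h1, h3] at hv
      exact (mul_eq_zero.1 (show δ * δ * hermForm n F q b b = 0 by linear_combination -hv)).resolve_left
        (mul_ne_zero hδ0 hδ0)
    intro k hk
    rw [tMat_split hF h1 h4 h3 δ hk]
    refine ((hgood a ha h1 k hk).mul (hgood b hb h4 _ ?_)).mul (rootMem hF hS h2 hn hH ha hb h1 h4 h3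
      ((hS.fix _).2 ?_))
    · rw [mul_pow, norm_pow_q hF, ← add_mul, hk, zero_mul]
    · rw [mul_pow, hδq, show k ^ q = -k by linear_combination hk, neg_mul_neg]
  have step : ∀ v, hermForm n F q v v = 0 → hermForm n F q v (sigma q P v) ≠ 0 → ∀ w : F,
      (∀ v', hermForm n F q v' v' = 0 →
        hermForm n F q v' (sigma q P v') = hermForm n F q v (sigma q P v) + 2 * δ * w ^ 2 → GoodCentre q M v') →
      GoodCentre q M v := by
    intro v hv hz w ih
    obtain ⟨a, b, ha, hb, hve, hs⟩ := exists_decomp hF hS hδ v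
    have hD : hermForm n F q a a * hermForm n F q b b - hermForm n F q a b ^ 2 ≠ 0 := by
      intro hD
      rw [hs, hve] at hz
      rw [hve] at hv
      simp only [herm_add_left, herm_add_right hF, herm_smul_left, herm_smul_right, hδq, neg_pow_q hF,
        herm_symm_one hF hS ha hb] at hv hz
      have h5 : (hermForm n F q a b + δ * hermForm n F q b b) * (hermForm n F q a b + δ * -hermForm n F q b b) = 0 := by
        linear_combination hermForm n F q b b * hv - hD
      have h6 : hermForm n F q a b = 0 ∧ hermForm n F q b b = 0 := by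
        rcases mul_eq_zero.1 h5 with h | h
        · exact split_eq_zero hF hS hδ (rat_one hF hS ha hb) (rat_one hF hS hb hb) h
        · obtain ⟨x, y⟩ := split_eq_zero hF hS hδ (rat_one hF hS ha hb) (F₀.neg_mem (rat_one hF hS hb hb)) h
          exact ⟨x, neg_eq_zero.1 y⟩
      rw [h6.1, h6.2] at hv hz
      exact hz (by linear_combination hv)
    obtain ⟨w₁, hw₁, w₂, hw₂, hw⟩ := exists_scalar_decomp hF hS hδ w
    obtain ⟨e, he, hee, hae, hbe⟩ := exists_iso_prescribed hF hS h2 hn ha hb hD hw₁ hw₂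
    have hvw : hermForm n F q v e = w := by rw [hve, herm_add_left, herm_smul_left, hae, hbe, hw]
    obtain ⟨g, hg, eg⟩ := hgood e he hee δ (by rw [hδq, add_neg_cancel])
    have hgv : (g : Matrix (Fin n) (Fin n) F) *ᵥ v = v + (δ * w) • e := by rw [eg, tMat_mulVec, hvw]
    have hev : hermForm n F q e v = w ^ q := by rw [herm_conj hF v e, hvw]
    have hsv : hermForm n F q (sigma q P v) e = w ^ q := by
      have h7 := herm_sigma hF hS v e
      rw [one_mul, one_mul, he.sigma_eq hF hS, hvw] at h7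
      exact h7.symm
    have hes : hermForm n F q e (sigma q P v) = w := by rw [herm_conj hF (sigma q P v) e, hsv, pow_q_q hF]
    have hG := ih (v + (δ * w) • e) (by
        rw [← hgv, form_of_mem hF hS h2 hn hH hM hg]; exact hv) (by
        rw [sigma_add hF, sigma_smul hF, he.sigma_eq hF hS]
        simp only [herm_add_left, herm_add_right hF, herm_smul_left, herm_smul_right, hee, hes, hvw, mul_pow,
          pow_q_q hF]
        ring)
    intro k hk
    obtain ⟨r, hr, er⟩ := hG k hk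
    refine ⟨g⁻¹ * r * g⁻¹⁻¹, M.mul_mem (M.mul_mem (M.inv_mem hg) hr) (M.inv_mem (M.inv_mem hg)), ?_⟩
    rw [Units.val_mul, Units.val_mul, er, conj_tMat hF (form_of_mem hF hS h2 hn hH hM (M.inv_mem hg)), ← hgv,
      mulVec_inv_P]
  obtain ⟨i, hi⟩ : IsSquare (-1 : F) := by
    rw [FiniteField.isSquare_neg_one_iff, hF]
    intro h
    rw [Nat.pow_mod] at h
    have h4 : q % 4 < 4 := Nat.mod_lt _ (by norm_num)
    interval_cases q % 4 <;> simp_all
  have main : ∀ v, hermForm n F q v v = 0 → GoodCentre q M v := by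
    intro v hv
    set z := hermForm n F q v (sigma q P v) with hzdef
    by_cases hz : z = 0
    · exact base v hv hz
    set t := z / (2 * δ) with ht
    have hzt : z = 2 * δ * t := by rw [ht, mul_comm, div_mul_cancel₀ _ (mul_ne_zero h2 hδ0)]
    refine step v hv hz ((t - 1) / 2) fun v' hv' hz' => ?_
    rw [← hzdef] at hz'
    by_cases hz0 : hermForm n F q v' (sigma q P v') = 0
    · exact base v' hv' hz0
    refine step v' hv' hz0 (i * ((t + 1) / 2)) fun v'' hv'' hz'' => base v'' hv'' ?_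
    rw [hz'', hz', hzt, mul_pow, sq i, ← hi]
    field_simp
    ring
  exact le_of_tMat_mem hF (by omega) fun v c hv hc => main v hv c hc

omit hM hH
/-- The orthogonal subfield group is maximal in the special unitary group. -/
theorem orthSubfield_isMaximal : Cfsg.Geo.IsMaximalIn (SUGL n F q) (SubH q F₀ P) := by
  obtain ⟨δ, hδ0, hδq⟩ := exists_skew hF
  refine ⟨lt_of_le_of_ne inf_le_right fun heq => ?_, fun M hle hM => ?_⟩
  · obtain ⟨c, hc, hcc, hc0, -⟩ := exists_iso_perp hF hS h2 hn (c := 0) inW_zero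
    obtain ⟨y, hy, -, -, hcy⟩ := exists_iso_partner hF hS h2 hn hc (d := 0) inW_zero (by simpa using hc0)
    have hyc : hermForm n F q y c = 1 := (herm_symm_one hF hS hc hy).trans hcy
    obtain ⟨g, hg, eg⟩ := exists_tMat_mem hF hcc (c := δ) (by rw [hδq, add_neg_cancel])
    have hg' : g ∈ SUGL n F q := hg
    rw [← heq] at hg'
    have hp := preserves_of_fix hF hS hg'.1 hc hc0 (by rw [eg, tMat_mulVec, hcc]; simp) y hy
    rw [eg, tMat_mulVec, hyc, mul_one] at hp
    have := (hp.sub hy)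
    rw [add_sub_cancel_left] at this
    exact not_mem_of_skew hF hS h2 hδ0 hδq (this.scalar_mem hc rfl hc0)
  by_cases hMH : M ≤ SubH q F₀ P
  · exact Or.inl (le_antisymm hMH hle)
  obtain ⟨c, k, hc, hc0, hcc, hk0, hk, hm⟩ := exists_rational_transv hF hS h2 hn hle hM hMH
  exact Or.inr (le_antisymm hM (le_of_good_rational hF hS h2 hn hle hM fun d hd hdd =>
    good_rational hF hS h2 hn hle hM hc hc0 hcc hk0 hk hm hd hdd))

end CfsgLib.SUSix96.OrthSub
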