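import Mathlib
import Cfsg.Agent.Subfield54.SUMain

/-!
Subfield subgroups of odd prime index of `SU_n(q)` are maximal from `n = 6` on: the coefficients that a
rational plane element can produce form a space of dimension four over the fixed subfield.
-/

set_option autoImplicit false

namespace CfsgLib.Subfield54.SU

open Matrix CfsgLib.TransvGL CfsgLib.UnitCentres CfsgLib.Dickson

variable {F : Type*} [Field F] [Fintype F] {F₀ : Subfield F} {σ : F ≃+* F}
variable {ι : Type} [Fintype ι] [DecidableEq ι] {f : (ι → F) → (ι → F) → F}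
variable {M : Subgroup (GL ι F)} {δ : F} (D : RatData σ f F₀ M δ)

include D in
/-- An irrational transvection of `M` gives an irrational long root element at a rational vector. -/
theorem long_root_exists96 {r : ℕ} (hr : r.Prime) (hcard : Fintype.card F = Nat.card F₀ ^ r) (h3 : 3 ≤ r)
    (hcardE : Nat.card (fixF σ) = Nat.card (F₀.comap (fixF σ).subtype) ^ r)
    (hn : 6 ≤ Fintype.card ι) {b₀ : ι → F} {c₀ : F} (hc0 : c₀ ≠ 0) (hct : c₀ + σ c₀ = 0)
    (hbM : TMem f M b₀ c₀) (hbL : ¬ RatLine F₀ b₀) :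
    ∃ a, Rat F₀ a ∧ a ≠ 0 ∧ f a a = 0 ∧
      ∃ ν, ν ∉ F₀ ∧ ν + σ ν = 0 ∧ ∀ x ∈ F₀, σ x = x → TMem f M a (x * ν) := by
  classical
  have hf := D.herm
  haveI := Fintype.ofFinite (fixF σ)
  have hcardE' : Fintype.card (fixF σ) = Nat.card (F₀.comap (fixF σ).subtype) ^ r := by
    rw [← Nat.card_eq_fintype_card]; exact hcardE
  by_contra hno
  have horth : ∀ (a v : ι → F) (k : F), k ≠ 0 → k + σ k = 0 → TMem f M v k → Rat F₀ a → a ≠ 0 →
      f a a = 0 → f a v = 0 → RatLine F₀ v := fun a v k hk hkt hv ha ha0 haa hav => by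
    by_contra hL
    exact hno ⟨a, ha, ha0, haa, long_root_of_orth D hk hkt hv hL ha ha0 haa hav⟩
  have hinj : ∀ w, Rat F₀ w → f w w = 0 → f w b₀ = 0 → w = 0 := fun w hw hww hwb => by
    by_contra h0
    exact hbL (horth w b₀ c₀ hc0 hct hbM hw h0 hww hwb)
  have hr5 : 5 ≤ r := by
    by_contra hlt
    have hr3 : r = 3 := by
      rcases Nat.lt_or_ge r 4 with h | h
      · omega
      · exact absurd (show r = 4 by omega) (fun e => by rw [e] at hr; norm_num at hr)
    haveI : Finite F₀ := inferInstance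
    have hfin : Module.finrank F₀ F = r := by
      have h := Module.natCard_eq_pow_finrank (K := F₀) (V := F)
      rw [Nat.card_eq_fintype_card, hcard] at h
      exact (Nat.pow_right_injective Finite.one_lt_card h).symm
    have hmul : ∀ (c : F₀) (v : ι → F₀), f (fun i => ((c • v) i : F)) b₀ = (c : F) * f (fun i => (v i : F)) b₀ :=
      fun c v => by rw [← hf.smul_left]; rfl
    let L : (ι → F₀) →ₗ[F₀] F :=
      { toFun := fun v => f (fun i => (v i : F)) b₀
        map_add' := fun v w => by rw [← hf.add_left]; rfl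
        map_smul' := fun c v => by rw [hmul]; rfl }
    have hlt' : Module.finrank F₀ F < Module.finrank F₀ (ι → F₀) := by
      rw [hfin, Module.finrank_pi]; omega
    obtain ⟨u, hu, hu0⟩ := (Submodule.ne_bot_iff _).mp (L.ker_ne_bot_of_finrank_lt hlt')
    obtain ⟨j, hj⟩ : ∃ j, u j ≠ 0 := Function.ne_iff.mp hu0
    have hlt'' : Module.finrank F₀ (F × F₀) < Module.finrank F₀ (ι → F₀) := by
      rw [Module.finrank_prod, hfin, Module.finrank_self, Module.finrank_pi]; omega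
    obtain ⟨w, hw, hw0⟩ := (Submodule.ne_bot_iff _).mp
      ((L.prod (LinearMap.proj j)).ker_ne_bot_of_finrank_lt hlt'')
    replace hw := Prod.ext_iff.mp (LinearMap.mem_ker.mp hw)
    obtain ⟨hwL, hwj⟩ := hw
    obtain ⟨c₁, h₁, c₂, h₂, hne, hiso⟩ := exists_iso_comb D (u := fun i => (u i : F)) (fun i => (u i).2)
      (fun h => hj (Subtype.ext (congrFun h j))) (w := fun i => (w i : F)) (fun i => (w i).2) fun s hs => hw0 (by
        have h := congrFun hs j
        replace hwj : w j = 0 := hwj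
        simp [hwj] at h
        rcases h with h | h
        · funext i; exact Subtype.ext (by simpa [h] using congrFun hs i)
        · exact absurd h hj)
    apply hne
    refine hinj _ ((Rat.smul h₁ fun i => (u i).2).add (Rat.smul h₂ fun i => (w i).2)) hiso ?_
    rw [hf.add_left, hf.smul_left, hf.smul_left, show f (fun i => (u i : F)) b₀ = 0 from hu,
      show f (fun i => (w i : F)) b₀ = 0 from hwL]
    ring
  -- the vectors
  obtain ⟨a, ha, ha0, haa, -⟩ := exists_iso_rat D (k := 0) (by omega) ![] (fun a => a.elim0)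
  obtain ⟨y₁, hy₁, hy₁a⟩ := exists_rat_pair_ne D ha0
  obtain ⟨y, hy, hya⟩ : ∃ y, Rat F₀ y ∧ f y a = 1 :=
    ⟨(f y₁ a)⁻¹ • y₁, hy₁.smul (F₀.inv_mem (D.rat _ _ hy₁ ha)), by rw [hf.smul_left, inv_mul_cancel₀ hy₁a]⟩
  obtain ⟨t₀, ht₀, hee⟩ := exists_shift D ha haa hy hya
  obtain ⟨e, he⟩ : ∃ e, e = y + t₀ • a := ⟨_, rfl⟩
  rw [← he] at hee
  have her : Rat F₀ e := he ▸ hy.add (ha.smul ht₀)
  have hea : f e a = 1 := by rw [he, hf.add_left, hf.smul_left, haa, hya, mul_zero, add_zero]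
  have hae : f a e = 1 := by rw [hf.herm, hea, map_one]
  obtain ⟨a', ha', ha'0, ha'a', hk'⟩ := exists_iso_rat D (k := 2) (by omega) ![upair hf a, upair hf e]
    (by simp [Fin.forall_fin_two, ratD_upair D, ha, her])
  have ha'a : f a' a = 0 := hk' 0
  have haa' : f a a' = 0 := orth_comm hf ha'a
  have ha'e : f a' e = 0 := hk' 1
  have hea' : f e a' = 0 := orth_comm hf ha'e
  have hli : ∀ s : F, a' ≠ s • a := fun s hs => ha'0 (by
    have : f a' e = s := by rw [hs, hf.smul_left, hae, mul_one]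
    rw [hs, this.symm.trans ha'e, zero_smul])
  obtain ⟨y₂, hy₂, hy₂a, hy₂a'⟩ := exists_rat_perp_sep D ha ha0 (a := a') hli
  obtain ⟨y', hy', hy'a, hy'a'⟩ : ∃ y', Rat F₀ y' ∧ f y' a = 0 ∧ f y' a' = 1 :=
    ⟨(f y₂ a')⁻¹ • y₂, hy₂.smul (F₀.inv_mem (D.rat _ _ hy₂ ha')), by rw [hf.smul_left, hy₂a, mul_zero],
      by rw [hf.smul_left, inv_mul_cancel₀ hy₂a']⟩
  obtain ⟨t₁, ht₁, he'e'⟩ := exists_shift D ha' ha'a' hy' hy'a'
  obtain ⟨e', he'⟩ : ∃ e', e' = y' + t₁ • a' := ⟨_, rfl⟩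
  rw [← he'] at he'e'
  have he'r : Rat F₀ e' := he' ▸ hy'.add (ha'.smul ht₁)
  have he'a : f e' a = 0 := by rw [he', hf.add_left, hf.smul_left, hy'a, ha'a, mul_zero, add_zero]
  have he'a' : f e' a' = 1 := by
    rw [he', hf.add_left, hf.smul_left, hy'a', ha'a', mul_zero, add_zero]
  have hae' : f a e' = 0 := orth_comm hf he'a
  have ha'e' : f a' e' = 1 := by rw [hf.herm, he'a', map_one]
  set p := f a b₀ with hp_def
  have hp : p ≠ 0 := fun h => ha0 (hinj a ha haa h)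
  obtain ⟨ρ, hρp⟩ : ∃ ρ, ρ * p = f a' b₀ := ⟨f a' b₀ / p, div_mul_cancel₀ _ hp⟩
  have hρ : ρ ∉ F₀ := fun h => hli ρ (sub_eq_zero.mp (hinj _ (ha'.sub (ha.smul h))
    (by simp [sub_left hf, sub_right hf, hf.smul_left, smul_right hf, haa, haa', ha'a, ha'a'])
    (by rw [sub_left hf, hf.smul_left, ← hp_def, hρp, sub_self])))
  have hquad : ∀ {u v : F}, u ∈ F₀ → v ∈ F₀ → ρ ^ 2 ≠ u + v * ρ :=
    Sp.not_quadratic hr hcard h3 hρ
  -- rescale the centre
  have hδ0 := D.delta_ne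
  have hσδ : σ δ = -δ := by linear_combination D.delta_tr
  have hσp : σ p ≠ 0 := fun h => hp (by simpa using h)
  obtain ⟨b, hb⟩ : ∃ b, b = (δ * σ p)⁻¹ • b₀ := ⟨_, rfl⟩
  have hab : f a b = -δ⁻¹ := by
    rw [hb, smul_right hf, ← hp_def, map_inv₀, map_mul, hf.involutive, hσδ]; field_simp
  have ha'b : f a' b = -(ρ * δ⁻¹) := by
    rw [hb, smul_right hf, ← hρp, map_inv₀, map_mul, hf.involutive, hσδ]; field_simp
  have hba : f b a = δ⁻¹ := by rw [hf.herm, hab, map_neg, map_inv₀, hσδ]; field_simp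
  have hba' : f b a' = σ ρ * δ⁻¹ := by rw [hf.herm, ha'b, map_neg, map_mul, map_inv₀, hσδ]; field_simp
  have hbb0 := hbM.1
  have hbb : f b b = 0 := by rw [hb, hf.smul_left, smul_right hf, hbb0, mul_zero, mul_zero]
  set s₀ := (δ * σ p)⁻¹ with hs₀
  have hs₀0 : s₀ * σ s₀ ≠ 0 := by
    have : s₀ ≠ 0 := inv_ne_zero (mul_ne_zero hδ0 hσp)
    exact mul_ne_zero this (fun h => this (by simpa using h))
  obtain ⟨k, hk⟩ : ∃ k, k = c₀ / (s₀ * σ s₀) := ⟨_, rfl⟩
  have hbk : TMem f M b k := by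
    rw [hb]
    exact TMem.smul hf s₀ (by rwa [hk, div_mul_cancel₀ _ hs₀0])
  have hk0 : k ≠ 0 := hk ▸ div_ne_zero hc0 hs₀0
  have hkt : k + σ k = 0 := by
    rw [hk, map_div₀, map_mul, hf.involutive, mul_comm (σ s₀) s₀, ← add_div, hct, zero_div]
  obtain ⟨R, hR⟩ : ∃ R, R = ρ • a - a' := ⟨_, rfl⟩
  have hRb : f R b = 0 := by rw [hR, sub_left hf, hf.smul_left, hab, ha'b]; ring
  have hRa : f R a = 0 := by rw [hR, sub_left hf, hf.smul_left, haa, ha'a]; ring
  have hRa' : f R a' = 0 := by rw [hR, sub_left hf, hf.smul_left, haa', ha'a']; ring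
  have hRR : f R R = 0 := by
    conv_lhs => arg 2; rw [hR]
    rw [sub_right hf, smul_right hf, hRa, hRa', mul_zero, sub_zero]
  -- generators
  have hgen : ∀ x y : F, x ∈ F₀ → y ∈ F₀ → ∀ c : F, c ∈ F₀ → σ c = c → ∃ g ∈ M, ∃ β : F,
      (g : Matrix ι ι F) *ᵥ a = a ∧
      (g : Matrix ι ι F) *ᵥ b = (c * ((x + y * ρ) * σ (x + y * ρ))) • a + b + β • R ∧
      ∀ z, f z a = 0 → f z a' = 0 → f z b = 0 → (g : Matrix ι ι F) *ᵥ z = z := by
    intro x y hx hy c hc hσc
    obtain ⟨hvv, g, hg, hgx⟩ := tmem_rat D (c := c * δ) ((ha.smul hx).add (ha'.smul hy))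
      (by simp [hf.add_left, add_right hf, hf.smul_left, smul_right hf, haa, haa', ha'a, ha'a'])
      (F₀.mul_mem hc D.delta_mem) (by rw [map_mul, hσc, hσδ]; ring)
    refine ⟨g, hg, -(c * (σ x + σ y * σ ρ) * y), ?_, ?_, fun z h1 h2 _ => ?_⟩
    · rw [hgx]; simp [add_right hf, smul_right hf, haa, haa']
    · rw [hgx, add_right hf, smul_right hf, smul_right hf, hba, hba', hR, map_add, map_mul]
      match_scalars <;> field_simp <;> ring
    · rw [hgx]; simp [add_right hf, smul_right hf, h1, h2]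
  have hwmem : -(k / δ) ∈ fixF σ := by
    rw [mem_fixF, map_neg, map_div₀, hσδ, show σ k = -k by linear_combination hkt, neg_div_neg_eq]
  have hN : ∀ x : F, x * σ x ∈ fixF σ := fun x => by rw [mem_fixF, map_mul, hf.involutive, mul_comm]
  have hlow : ∃ g ∈ M, (g : Matrix ι ι F) *ᵥ a = a + (((⟨_, hwmem⟩ : fixF σ)) : F) • b ∧
      (g : Matrix ι ι F) *ᵥ b = b ∧
      ∀ z, f z a = 0 → f z a' = 0 → f z b = 0 → (g : Matrix ι ι F) *ᵥ z = z := by
    obtain ⟨-, g, hg, hgx⟩ := hbk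
    refine ⟨g, hg, ?_, by rw [hgx, hbb]; simp, fun z _ _ h3 => by rw [hgx, h3]; simp⟩
    rw [hgx, hab, mul_neg, ← div_eq_mul_inv]
  -- the second generator
  obtain ⟨x₂, y₂', hx₂, hy₂', hu₂⟩ : ∃ x y : F, x ∈ F₀ ∧ y ∈ F₀ ∧
      (x + y * ρ) * σ (x + y * ρ) ∉ F₀ := by
    by_cases h1 : ρ * σ ρ ∈ F₀
    · by_cases h2 : (1 + ρ) * σ (1 + ρ) ∈ F₀
      · exfalso
        refine hquad (u := -(ρ * σ ρ)) (v := (1 + ρ) * σ (1 + ρ) - 1 - ρ * σ ρ) (F₀.neg_mem h1)
          (F₀.sub_mem (F₀.sub_mem h2 F₀.one_mem) h1) ?_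
        rw [map_add, map_one]; ring
      · exact ⟨1, 1, F₀.one_mem, F₀.one_mem, by rwa [one_mul]⟩
    · exact ⟨0, 1, F₀.zero_mem, F₀.one_mem, by rwa [zero_add, one_mul]⟩
  -- the values on rational plane elements: a space of dimension four over the fixed subfield
  obtain ⟨μ, hμF, hμ⟩ : ∃ μ ∈ F₀, μ + σ μ = 1 := by
    obtain ⟨z, hz, hzne⟩ := D.conj_ne
    have hd : z - σ z ≠ 0 := sub_ne_zero.2 (Ne.symm hzne)
    refine ⟨z / (z - σ z), F₀.div_mem hz (F₀.sub_mem hz (D.conj_mem _ hz)), ?_⟩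
    rw [map_div₀, map_sub, hf.involutive, ← neg_sub z (σ z), div_neg, ← sub_eq_add_neg, ← sub_div,
      div_self hd]
  obtain ⟨x₀, hx₀⟩ := Sp.exists_not_mem_image (F := fixF σ) (F₀ := F₀.comap (fixF σ).subtype)
    hcardE' (k := 4) (by omega) (by
      let z := Classical.choose D.conj_ne
      exact fun c => Function.invFun (fun e : fixF σ => (e : F))
        (((c 0 : fixF σ) : F) + (((c 1 : fixF σ) : F) + (c 2 : fixF σ) * z) * ρ
          + σ ((((c 1 : fixF σ) : F) + (c 2 : fixF σ) * z) * ρ)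
          + ((c 3 : fixF σ) : F) * (ρ * σ ρ)))
  obtain ⟨h, hhM, α, β, hha, hhb, hhz⟩ := plane D hr hcardE (a := a) (a' := a') (b := b) (R := R)
    haa (by rw [hab]; exact neg_ne_zero.2 (inv_ne_zero hδ0)) hRa hRa' hRb hRR
    (u₁ := 1) (u₂ := ⟨_, hN (x₂ + y₂' * ρ)⟩) one_ne_zero
    (by
      rw [div_one, Subfield.mem_comap]
      exact hu₂)
    (fun u hu c hc => by
      rcases hu with rfl | rfl
      · have := hgen 1 0 F₀.one_mem F₀.zero_mem c hc c.2
        simpa using this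
      · simpa using hgen x₂ y₂' hx₂ hy₂' c hc c.2)
    (w := ⟨_, hwmem⟩) (fun h0 => by
      have := congrArg Subtype.val h0
      simp [hk0, hδ0] at this) hlow x₀
  have hha' : (h : Matrix ι ι F) *ᵥ a' = a' + (ρ * α) • R := by
    rw [show a' = ρ • a - R by rw [hR]; abel, mulVec_sub, mulVec_smul, hha, hhz R hRa hRa' hRb]; module
  have hpres : Iso f h := D.iso h hhM
  have haR : f a R = 0 := orth_comm hf hRa
  have hcentre : ∀ v w, Rat F₀ v → f v v = 0 → Rat F₀ w → w ≠ 0 → f w w = 0 →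
      f w ((h : Matrix ι ι F) *ᵥ v) = 0 → RatLine F₀ ((h : Matrix ι ι F) *ᵥ v) :=
    fun v w hv hvv hw hw0 hww hwv => horth w _ δ hδ0 D.delta_tr
      ((tmem_rat D hv hvv D.delta_mem D.delta_tr).conj hhM hpres) hw hw0 hww hwv
  have hα : α = 0 := by
    by_contra hα
    have e1 := ratLine_pair_ratio D (hcentre a a ha haa ha ha0 haa
      (by rw [hha]; simp [add_right hf, smul_right hf, haa, haR])) her he'r
    have e2 := ratLine_pair_ratio D (hcentre a' a ha' ha'a' ha ha0 haa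
      (by rw [hha']; simp [add_right hf, smul_right hf, haa', haR])) he'r her
    have e3 := ratLine_pair_ratio D (hcentre (a + a') a (ha.add ha')
      (by simp [hf.add_left, add_right hf, haa, haa', ha'a, ha'a']) ha ha0 haa
      (by rw [mulVec_add, hha, hha']; simp [add_right hf, smul_right hf, haa, haa', haR])) her he'r
    have hRe : f R e = ρ := by rw [hR, sub_left hf, hf.smul_left, hae, ha'e]; ring
    have hRe' : f R e' = -1 := by rw [hR, sub_left hf, hf.smul_left, hae', ha'e']; ring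
    rw [hha] at e1
    rw [hha'] at e2
    rw [mulVec_add, hha, hha'] at e3
    simp only [hf.add_left, hf.smul_left, hae, hae', ha'e, ha'e', hRe, hRe'] at e1 e2 e3
    set c := (1 + α * ρ) / (0 + α * -1) with hc_def
    set c' := (1 + ρ * α * -1) / (0 + ρ * α * ρ) with hc'_def
    have hρ0 : ρ ≠ 0 := fun h => hρ (h ▸ F₀.zero_mem)
    have k1 : 1 / α + ρ = -c := by
      rw [hc_def, zero_add, mul_neg_one, div_neg, neg_neg, add_div, mul_div_cancel_left₀ _ hα]
    have k2 : 1 / α - ρ = c' * ρ ^ 2 := by rw [hc'_def]; field_simp; ring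
    have h2mem : (2 : F) ∈ F₀ := by simpa [one_add_one_eq_two] using F₀.add_mem F₀.one_mem F₀.one_mem
    by_cases hc' : c' = 0
    · rw [hc'] at k2
      by_cases h2 : (2 : F) = 0
      · have hap : α * ρ = 1 := by
          have : 1 / α = ρ := by linear_combination k2
          rw [← this, mul_one_div, div_self hα]
        refine hquad (u := -((1 + α * ρ + (0 + ρ * α * ρ)) / (0 + α * -1 + (1 + ρ * α * -1)))) (v := 0)
          (F₀.neg_mem e3) F₀.zero_mem ?_
        have hn2 : 1 + α * ρ + (0 + ρ * α * ρ) = ρ := by linear_combination (1 + ρ) * hap + h2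
        have hd2 : 0 + α * -1 + (1 + ρ * α * -1) = -α := by linear_combination -hap
        rw [hn2, hd2]
        field_simp
        linear_combination hap
      · apply hρ
        have : ρ = -c / 2 := by field_simp; linear_combination k1 - k2
        rw [this]
        exact F₀.div_mem (F₀.neg_mem e1) h2mem
    · exact hquad (u := -c / c') (v := -2 / c') (F₀.div_mem (F₀.neg_mem e1) e2)
        (F₀.div_mem (F₀.neg_mem h2mem) e2)
        (by field_simp; linear_combination k1 - k2)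
  subst hα
  simp only [zero_smul, add_zero, mul_zero] at hha hha'
  have hperp : ∀ z, f z a = 0 → f z a' = 0 → (h : Matrix ι ι F) *ᵥ z = z := by
    intro z h1 h2
    have := hhz (z - (f z b / f a b) • a) (by rw [sub_left hf, hf.smul_left, h1, haa]; ring)
      (by rw [sub_left hf, hf.smul_left, h2, haa']; ring)
      (by rw [sub_left hf, hf.smul_left, div_mul_cancel₀ _ (by rw [hab]; exact neg_ne_zero.2 (inv_ne_zero hδ0)),
        sub_self])
    rwa [mulVec_sub, mulVec_smul, hha, sub_left_inj] at this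
  have hline : ∀ v w, Rat F₀ v → f v v = 0 → Rat F₀ w → w ≠ 0 → f w w = 0 →
      (h : Matrix ι ι F) *ᵥ w = w → f w v = 0 →
      ∀ y, Rat F₀ y → (h : Matrix ι ι F) *ᵥ y = y → f y v ≠ 0 →
        Rat F₀ ((h : Matrix ι ι F) *ᵥ v) := by
    intro v w hv hvv hw hw0 hww hhw hwv y hy hhy hyv
    obtain ⟨t, u, hu, htu⟩ := hcentre v w hv hvv hw hw0 hww (by rw [← hhw, hpres, hwv])
    have h1 : σ t * f y u = f y v := by
      rw [← smul_right hf, ← htu]
      conv_lhs => rw [← hhy]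
      rw [hpres]
    have hyu : f y u ≠ 0 := fun h0 => hyv (by rw [← h1, h0, mul_zero])
    rw [htu]
    refine hu.smul ?_
    have hσt : σ t ∈ F₀ := by
      rw [eq_div_iff hyu |>.mpr h1]
      exact F₀.div_mem (D.rat _ _ hy hv) (D.rat _ _ hy hu)
    simpa [hf.involutive] using D.conj_mem _ hσt
  have hher := hline e a' her hee ha' ha'0 ha'a' hha' ha'e a ha hha (by rw [hae]; exact one_ne_zero)
  have hhe'r := hline e' a he'r he'e' ha ha0 haa hha hae' a' ha' hha' (by rw [ha'e']; exact one_ne_zero)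
  have hdisp : ∀ v, (h : Matrix ι ι F) *ᵥ v - v =
      f ((h : Matrix ι ι F) *ᵥ v - v) e • a + f ((h : Matrix ι ι F) *ᵥ v - v) e' • a' := by
    intro v
    set d := (h : Matrix ι ι F) *ᵥ v - v with hd
    refine pair_inj hf fun x => ?_
    have hx0 := hperp (x - f x a • e - f x a' • e')
      (by simp [sub_left hf, hf.smul_left, hea, he'a])
      (by simp [sub_left hf, hf.smul_left, hea', he'a'])
    have h0 : f (x - f x a • e - f x a' • e') d = 0 := by
      rw [hd, sub_right hf, sub_eq_zero]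
      conv_lhs => rw [← hx0]
      rw [hpres]
    rw [sub_left hf, sub_left hf, hf.smul_left, hf.smul_left] at h0
    rw [add_right hf, smul_right hf, smul_right hf, ← hf.herm e d, ← hf.herm e' d]
    linear_combination h0
  obtain ⟨de, hde⟩ : ∃ d, d = (h : Matrix ι ι F) *ᵥ e - e := ⟨_, rfl⟩
  obtain ⟨de', hde'⟩ : ∃ d, d = (h : Matrix ι ι F) *ᵥ e' - e' := ⟨_, rfl⟩
  have hb' : (h : Matrix ι ι F) *ᵥ b - b = f b a • de + f b a' • de' := by
    have := hperp (b - f b a • e - f b a' • e')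
      (by simp [sub_left hf, hf.smul_left, hea, he'a])
      (by simp [sub_left hf, hf.smul_left, hea', he'a'])
    rw [mulVec_sub, mulVec_sub, mulVec_smul, mulVec_smul] at this
    rw [hde, hde']
    linear_combination (norm := module) this
  have hd1 := hdisp e
  have hd2 := hdisp e'
  rw [← hde] at hd1
  rw [← hde'] at hd2
  have hder : Rat F₀ de := hde ▸ hher.sub her
  have hde'r : Rat F₀ de' := hde' ▸ hhe'r.sub he'r
  set l₁ := f de e
  set l₂ := f de e'
  set m₁ := f de' e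
  set m₂ := f de' e'
  have hl := congrArg (f · b) hb'
  rw [hd1, hd2, hhb] at hl
  simp [sub_left hf, hf.add_left, hf.smul_left, hRb, hab, ha'b, hba, hba'] at hl
  -- coordinates over the fixed field
  set z₀ := Classical.choose D.conj_ne with hz₀
  obtain ⟨hz₀F, hz₀ne⟩ := Classical.choose_spec D.conj_ne
  have hcoord₀ : ∀ t ∈ F₀, ∃ c d : F₀.comap (fixF σ).subtype,
      t = ((c : fixF σ) : F) + ((d : fixF σ) : F) * z₀ := by
    intro t ht
    have hd : z₀ - σ z₀ ≠ 0 := sub_ne_zero.2 (Ne.symm hz₀ne)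
    have h1 : σ ((t - σ t) / (z₀ - σ z₀)) = (t - σ t) / (z₀ - σ z₀) := by
      rw [map_div₀, map_sub, map_sub, hf.involutive, hf.involutive, ← neg_sub t, ← neg_sub z₀, neg_div_neg_eq]
    have h1F : (t - σ t) / (z₀ - σ z₀) ∈ F₀ :=
      F₀.div_mem (F₀.sub_mem ht (D.conj_mem _ ht)) (F₀.sub_mem hz₀F (D.conj_mem _ hz₀F))
    have h2 : σ (t - (t - σ t) / (z₀ - σ z₀) * z₀) = t - (t - σ t) / (z₀ - σ z₀) * z₀ := by
      rw [map_sub, map_mul, h1]
      field_simp
      ring
    exact ⟨⟨⟨_, h2⟩, F₀.sub_mem ht (F₀.mul_mem h1F hz₀F)⟩, ⟨⟨_, h1⟩, h1F⟩, by simp⟩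
  have hxeq : (l₁ + l₂ * ρ + m₁ * σ ρ + m₂ * (ρ * σ ρ)) / δ = (x₀ : F) := by
    field_simp at hl ⊢
    linear_combination hl
  have hfixmem : ∀ t ∈ F₀, ∃ c : F₀.comap (fixF σ).subtype, t + σ t = ((c : fixF σ) : F) := fun t ht =>
    ⟨⟨⟨t + σ t, by rw [mem_fixF, map_add, hf.involutive, add_comm]⟩, F₀.add_mem ht (D.conj_mem _ ht)⟩, rfl⟩
  have hμd : μ / δ ∈ F₀ := F₀.div_mem hμF D.delta_mem
  obtain ⟨ca, hca⟩ := hfixmem _ (F₀.mul_mem hμd (D.rat _ _ hder her))
  obtain ⟨cb, hcb⟩ := hfixmem _ (F₀.mul_mem hμd (D.rat _ _ hde'r he'r))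
  obtain ⟨c1, c2, hc12⟩ := hcoord₀ _ (F₀.add_mem (F₀.mul_mem hμd (D.rat _ _ hder he'r))
    (D.conj_mem _ (F₀.mul_mem hμd (D.rat _ _ hde'r her))))
  refine hx₀ ![ca, c1, c2, cb] ?_
  show Function.invFun (fun e : fixF σ => (e : F)) _ = x₀
  rw [← Function.leftInverse_invFun (f := fun e : fixF σ => (e : F)) Subtype.val_injective x₀]
  congr 1
  show ((ca : fixF σ) : F) + (((c1 : fixF σ) : F) + (c2 : fixF σ) * z₀) * ρ
      + σ ((((c1 : fixF σ) : F) + (c2 : fixF σ) * z₀) * ρ) + ((cb : fixF σ) : F) * (ρ * σ ρ) = (x₀ : F)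
  rw [← hca, ← hcb, ← hc12]
  have hx : σ ((x₀ : F)) = x₀ := x₀.2
  have hsum : μ * (x₀ : F) + σ (μ * x₀) = x₀ := by
    rw [map_mul, hx, ← add_mul, hμ, one_mul]
  rw [← hxeq] at hsum
  simp only [map_add, map_mul, map_div₀, hf.involutive] at hsum ⊢
  rw [← hxeq]
  linear_combination hsum


include D in
/-- A subgroup strictly above the subfield group has all centres. -/
theorem centre_of_not_le96 {r : ℕ} (hr : r.Prime) (hcard : Fintype.card F = Nat.card F₀ ^ r) (h3 : 3 ≤ r)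
    (hcardE : Nat.card (fixF σ) = Nat.card (F₀.comap (fixF σ).subtype) ^ r)
    (hn : 6 ≤ Fintype.card ι) {g : GL ι F} (hg : g ∈ M) (hgH : g ∉ Cfsg.Geo.subfieldSubgroup F₀ 1) :
    ∀ y, f y y = 0 → Centre D.herm M y := by
  obtain ⟨v, hv, hvv, hvL⟩ := exists_iso_moved D (by omega) hgH
  obtain ⟨a, ha, ha0, haa, ν, hν, hνt, hνM⟩ := long_root_exists96 D hr hcard h3 hcardE hn D.delta_ne
    D.delta_tr ((tmem_rat D hv hvv D.delta_mem D.delta_tr).conj hg (D.iso g hg)) hvL
  have hac := centre_of_root D hr hcardE ha ha0 haa hν hνt hνM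
  exact fun y hy => centre_of_rat D (by omega) (fun u hu huu => centre_rat D (by omega) hac ha ha0 hu huu) hy


/-- The subfield subgroups are maximal in the special unitary group. -/
theorem subfield_maximal_su96 {n q : ℕ} (hF : Fintype.card F = q ^ 2) (hn : 6 ≤ n) (F₀ : Subfield F)
    {r : ℕ} (hr : r.Prime) (hro : Odd r) (hcard : Fintype.card F = Nat.card F₀ ^ r)
    (P : GL (Fin n) F) (hP : Cfsg.Geo.IsFormRationalStructure (Cfsg.hermForm n F q) F₀ 1 P) :
    Cfsg.Geo.IsMaximalIn (Cfsg.GU n F q ⊓ Cfsg.Geo.specialLinear (Fin n) F)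
      (Cfsg.Geo.subfieldSubgroup F₀ P ⊓ (Cfsg.GU n F q ⊓ Cfsg.Geo.specialLinear (Fin n) F)) := by
  classical
  obtain ⟨σ, hσ, hstd⟩ := CfsgLib.LinAlg.Witt.exists_isUnitaryForm_hermForm (n := n) hF
  have h3 : 3 ≤ r := by
    rcases hro with ⟨k, hk⟩
    have := hr.two_le
    omega
  have hF0 : F₀ ≠ ⊤ := by
    intro h
    have e : Nat.card F₀ = Fintype.card F := by
      rw [h, Nat.card_congr Subfield.topEquiv.toEquiv, Nat.card_eq_fintype_card]
    rw [e] at hcard
    have := lt_self_pow₀ (Fintype.one_lt_card (α := F)) hr.one_lt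
    omega
  have hconj : ∀ x ∈ F₀, σ x ∈ F₀ := fun x hx => hσ x ▸ F₀.pow_mem hx q
  have hEsq : Nat.card (fixF σ) ^ 2 = Fintype.card F := by
    have hne : ∃ z ∈ (⊤ : Subfield F), σ z ≠ z := by
      by_contra h
      push Not at h
      exact hstd.ne_refl (RingEquiv.ext fun x => h x trivial)
    have := card_fix_sq hstd.involutive ⊤ (fun _ _ => trivial) hne
    rwa [Subfield.comap_top, Nat.card_congr Subfield.topEquiv.toEquiv, Nat.card_congr Subfield.topEquiv.toEquiv,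
      Nat.card_eq_fintype_card (α := F)] at this
  have hne : ∃ z ∈ F₀, σ z ≠ z := by
    by_contra h
    push Not at h
    haveI := Fintype.ofFinite (fixF σ)
    have heq : Nat.card (F₀.comap (fixF σ).subtype) = Nat.card F₀ :=
      Nat.card_congr
        { toFun := fun x => ⟨((x : fixF σ) : F), x.2⟩
          invFun := fun x => ⟨⟨x, h x x.2⟩, x.2⟩
          left_inv := fun x => rfl
          right_inv := fun x => rfl }
    obtain ⟨m, -, hm⟩ := CfsgLib.Dickson.exists_pow_card (F₀.comap (fixF σ).subtype)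
    rw [heq, ← Nat.card_eq_fintype_card] at hm
    rw [← hm, hcard, ← pow_mul] at hEsq
    have := Nat.pow_right_injective Finite.one_lt_card hEsq
    rcases hro with ⟨k, hk⟩
    omega
  have hcardE : Nat.card (fixF σ) = Nat.card (F₀.comap (fixF σ).subtype) ^ r := by
    apply Nat.pow_left_injective two_ne_zero
    show Nat.card (fixF σ) ^ 2 = (Nat.card (F₀.comap (fixF σ).subtype) ^ r) ^ 2
    rw [hEsq, hcard, ← pow_mul, mul_comm r 2, pow_mul, card_fix_sq hstd.involutive F₀ hconj hne]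
  obtain ⟨z, hz, hzne⟩ := hne
  refine ⟨lt_of_le_of_ne inf_le_right fun h => ?_, fun M hHM hMS => ?_⟩
  · exact CfsgLib.AschPrime.not_le_subfieldSubgroup hF (by omega) hF0 P (h ▸ inf_le_left)
  by_cases hle : M ≤ Cfsg.Geo.subfieldSubgroup F₀ P
  · exact Or.inl (le_antisymm (le_inf hle hMS) hHM)
  refine Or.inr (le_antisymm hMS ?_)
  obtain ⟨g, hg, hgH⟩ := SetLike.not_le_iff_exists.mp hle
  let f : (Fin n → F) → (Fin n → F) → F := fun x y =>
    Cfsg.hermForm n F q ((P : Matrix (Fin n) (Fin n) F) *ᵥ x) ((P : Matrix (Fin n) (Fin n) F) *ᵥ y)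
  have hPinj : ∀ v : Fin n → F, v ≠ 0 → (P : Matrix (Fin n) (Fin n) F) *ᵥ v ≠ 0 := fun v hv h => hv (by
    rw [← inv_mulVec_mulVec P v, h, mulVec_zero])
  have hf : Cfsg.Geo.IsUnitaryForm σ f :=
    { ne_refl := hstd.ne_refl
      involutive := hstd.involutive
      add_left := fun x y v => by simp [f, mulVec_add, hstd.add_left]
      smul_left := fun c x v => by simp [f, mulVec_smul, hstd.smul_left]
      herm := fun v w => hstd.herm _ _
      nondegenerate := fun v hv => by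
        obtain ⟨⟨x, hx⟩, ⟨y, hy⟩⟩ := hstd.nondegenerate _ (hPinj v hv)
        refine ⟨⟨((P⁻¹ : GL (Fin n) F) : Matrix (Fin n) (Fin n) F) *ᵥ x, ?_⟩,
          ⟨((P⁻¹ : GL (Fin n) F) : Matrix (Fin n) (Fin n) F) *ᵥ y, ?_⟩⟩
        · simp only [f, mulVec_inv_mulVec]; exact hx
        · simp only [f, mulVec_inv_mulVec]; exact hy }
  set c := (MulAut.conj P).toMonoidHom with hc
  have e0 : ∀ (x : GL (Fin n) F) (u : Fin n → F), (c x : GL (Fin n) F).val *ᵥ ((P : Matrix (Fin n) (Fin n) F) *ᵥ u)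
      = (P : Matrix (Fin n) (Fin n) F) *ᵥ ((x : Matrix (Fin n) (Fin n) F) *ᵥ u) := by
    intro x u
    rw [hc, MulEquiv.coe_toMonoidHom, MulAut.conj_apply, Units.val_mul, Units.val_mul, ← mulVec_mulVec,
      ← mulVec_mulVec, inv_mulVec_mulVec]
  have hmem : ∀ x : GL (Fin n) F, c x ∈ Cfsg.GU n F q ⊓ Cfsg.Geo.specialLinear (Fin n) F ↔
      Iso f x ∧ x ∈ Cfsg.Geo.specialLinear (Fin n) F := by
    intro x
    rw [CfsgLib.UnitCentres.mem_special]
    refine and_congr ⟨fun h u v => ?_, fun h u v => ?_⟩ ?_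
    · simp only [f, ← e0, h _ _]
    · have := h (((P⁻¹ : GL (Fin n) F) : Matrix (Fin n) (Fin n) F) *ᵥ u)
        (((P⁻¹ : GL (Fin n) F) : Matrix (Fin n) (Fin n) F) *ᵥ v)
      simp only [f, mulVec_inv_mulVec] at this
      rw [← e0 x, ← e0 x, mulVec_inv_mulVec, mulVec_inv_mulVec] at this
      exact this
    · simp [Cfsg.Geo.specialLinear, c]
  obtain ⟨δ, hδ, hδ0, hδt⟩ : ∃ δ ∈ F₀, δ ≠ 0 ∧ δ + σ δ = 0 :=
    ⟨z - σ z, F₀.sub_mem hz (hconj z hz), sub_ne_zero.2 (Ne.symm hzne), by rw [map_sub, hstd.involutive]; ring⟩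
  have D : RatData σ f F₀ (M.comap c) δ :=
    { herm := hf
      rat := fun u v hu hv => by simpa [f] using hP u v hu hv
      conj_mem := hconj
      delta_mem := hδ
      delta_ne := hδ0
      delta_tr := hδt
      conj_ne := ⟨z, hz, hzne⟩
      iso := fun x hx => ((hmem x).1 (hMS hx)).1
      rat_mem := fun x hx hxS hxr => hHM ⟨Subgroup.mem_map.mpr ⟨x, by
          simpa [Cfsg.Geo.subfieldSubgroup] using
            (mem_subfield_of_ratLine fun v hv => ⟨1, _, hxr v hv, (one_smul _ _).symm⟩ :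
              x ∈ Cfsg.Geo.subfieldSubgroup F₀ 1), rfl⟩, (hmem x).2 ⟨hx, hxS⟩⟩ }
  have hC := centre_of_not_le96 D hr hcard h3 hcardE (by simpa using hn) (g := P⁻¹ * g * P)
    (by simpa [c, ← mul_assoc] using hg) (by
      intro hm
      apply hgH
      simp only [Cfsg.Geo.subfieldSubgroup, Subgroup.mem_map] at hm ⊢
      obtain ⟨y, hy, hye⟩ := hm
      exact ⟨y, hy, by simp_all [mul_assoc]⟩)
  refine CfsgLib.UnitCentres.gu_le_of_centres hF (by omega) hσ hstd fun v hv => ⟨hv, fun d hd => ?_⟩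
  obtain ⟨hu, hM'⟩ := hC (((P⁻¹ : GL (Fin n) F) : Matrix (Fin n) (Fin n) F) *ᵥ v)
    (by simpa only [f, mulVec_inv_mulVec] using hv)
  have h5 : c (uT hf hu d) ∈ M := hM' d hd
  convert h5 using 1
  apply ext_mulVec
  intro x
  conv_rhs => rw [← mulVec_inv_mulVec P x, e0, uT_mulVec, mulVec_add, mulVec_smul, mulVec_inv_mulVec]
  rw [uT_mulVec]
  simp only [f, mulVec_inv_mulVec]


end CfsgLib.Subfield54.SU
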