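import Cfsg.Agent.SUSix96.TensorBasic

/-!
A root element with a non-scalar coefficient makes every isotropic vector the centre of transvections of the group.
-/

set_option autoImplicit false
set_option linter.unusedSectionVars false

namespace CfsgLib.SUSix96.Tensor23

open Module Matrix
open CfsgLib.FormTensor89
open CfsgLib.UnitTensor96 (exists_partner span_iso eqv eqv_apply)
open CfsgLib.UnitCentres (add_right smul_right zero_left zero_right sub_left sub_right orth_comm norm_fixed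
  exists_trace exists_traceZero Iso Centre uT uT_mulVec uT_iso uT_mem_specialLinear)
open CfsgLib.TransvGL (ext_mulVec)

variable {ι κ₁ κ₂ : Type} [Fintype ι] [DecidableEq ι] [Fintype κ₁] [DecidableEq κ₁] [Fintype κ₂]
  [DecidableEq κ₂] {F : Type*} [Field F] [Finite F] {τ : F ≃+* F}
  {D : TData ι F (κ₁ → F) (κ₂ → F)} {M : Subgroup (GL ι F)} (H : S23 D τ M)
include H

/-- The coefficient of a root element of `M` is skew. -/
lemma skew_of_inM {k : κ₂ → F} (hk : k ≠ 0) (hkk : D.f₂ k k = 0) {θ : (κ₁ → F) →ₗ[F] (κ₁ → F)}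
    (h : InM M (D.R θ k)) (u v : κ₁ → F) : D.f₁ (θ u) v + D.f₁ u (θ v) = 0 := by
  obtain ⟨e, he, heX⟩ := h
  obtain ⟨k', -, hk'k', hkk', hk'k, -, -, -⟩ := exists_frame H hk hkk
  have h1 := H.iso e he (D.ten u k') (D.ten v k')
  rw [heX, heX] at h1
  rw [add_comm]
  simpa [H.uB.add_left, add_right H.uB, B_ten H, D.ctr_ten, hk'k', hkk', hk'k, hkk] using h1

/-- Conjugating a root element by a factorwise element. -/
lemma conj_root {k : κ₂ → F} {θ : (κ₁ → F) →ₗ[F] (κ₁ → F)} (h : InM M (D.R θ k)) {e : GL ι F} (he : e ∈ M)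
    (α : (κ₁ → F) ≃ₗ[F] (κ₁ → F)) (β : (κ₂ → F) →ₗ[F] (κ₂ → F)) (hα : ∀ u v, D.f₁ (α u) (α v) = D.f₁ u v)
    (heX : ∀ u z, (e : Matrix ι ι F) *ᵥ D.ten u z = D.ten (α u) (β z)) :
    InM M (D.R (α.toLinearMap ∘ₗ θ ∘ₗ α.symm.toLinearMap) (β k)) := by
  obtain ⟨x, hx, hxX⟩ := h
  refine ⟨e * x * e⁻¹, M.mul_mem (M.mul_mem he hx) (M.inv_mem he), fun Y => ?_⟩
  have hc : D.ctr (β k) Y = α (D.ctr k (((e⁻¹ : GL ι F) : Matrix ι ι F) *ᵥ Y)) := D.f₁_ext fun v => by
    obtain ⟨v, rfl⟩ := α.surjective v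
    rw [hα, ← D.B_ctr, ← D.B_ctr, ← heX, ← H.iso e he (((e⁻¹ : GL ι F) : Matrix ι ι F) *ᵥ Y), mulVec_inv]
  rw [mul_mulVec, mul_mulVec, hxX, mulVec_add, mulVec_inv, TData.R_apply, TData.R_apply, heX, hc]
  simp

/-- Root coefficients at one point are closed under fixed scalars. -/
lemma smul_root {k : κ₂ → F} (hk : k ≠ 0) (hkk : D.f₂ k k = 0) {θ : (κ₁ → F) →ₗ[F] (κ₁ → F)}
    (h : InM M (D.R θ k)) {s : F} (hs : τ s = s) : InM M (D.R (s • θ) k) := by
  rcases eq_or_ne s 0 with rfl | hs0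
  · exact (InM.zero M).congr fun X => by simp
  obtain ⟨l, hl⟩ := exists_norm_eq H hs
  have hl0 : l ≠ 0 := fun h0 => hs0 (by rw [← hl, h0, zero_mul])
  obtain ⟨e, he, b, hbk, -, hb⟩ := move₂ H hk (smul_ne_zero hl0 hk) hkk (k' := l • k)
    (by rw [H.u₂.smul_left, smul_right H.u₂, hkk, mul_zero, mul_zero])
  have h1 := conj_root H h he (LinearEquiv.refl F _) b.toLinearMap (fun _ _ => rfl) hb
  refine h1.congr fun X => ?_
  rw [LinearEquiv.coe_coe, hbk, TData.R_smul, H.hσ, hl]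
  simp

/-- One non-scalar coefficient gives the transvections at a pure isotropic vector. -/
lemma centre_of_coef {k : κ₂ → F} (hk : k ≠ 0) (hkk : D.f₂ k k = 0) {θ : (κ₁ → F) →ₗ[F] (κ₁ → F)}
    (h : InM M (D.R θ k)) {a : κ₁ → F} (haa : D.f₁ a a = 0) (hz : D.f₁ (θ a) a ≠ 0) :
    Centre H.uB M (D.ten a k) := by
  obtain ⟨ε, hε, hεσ⟩ := exists_traceZero H.u₁
  obtain ⟨s, hs, hs0, hs1⟩ := H.three
  set z := D.f₁ (θ a) a with hzdef
  have hzt : z + τ z = 0 := by rw [hzdef, ← H.u₁.herm a (θ a)]; exact skew_of_inM H hk hkk h a a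
  -- conjugates by transvections of the first factor
  have hconj : ∀ s : F, τ s = s → InM M (D.R (θ + (ε * s) •
      ((CfsgLib.UnitCentres.upair H.u₁ a).smulRight a ∘ₗ θ - θ ∘ₗ (CfsgLib.UnitCentres.upair H.u₁ a).smulRight a)
      - (ε * s * (ε * s) * z) • (CfsgLib.UnitCentres.upair H.u₁ a).smulRight a) k) := by
    intro s hs
    have hc : ε * s + τ (ε * s) = 0 := by rw [map_mul, hs, ← add_mul, hεσ, zero_mul]
    obtain ⟨e, he, heX⟩ := H.l₁ _ (uT_iso H.u₁ haa hc) (uT_mem_specialLinear H.u₁ haa _)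
    have h1 := conj_root H h he (eqv (uT H.u₁ haa (ε * s))) LinearMap.id (uT_iso H.u₁ haa hc) heX
    refine h1.congr fun X => ?_
    simp only [TData.R_apply, LinearMap.id_apply]
    congr 2
    refine (?_ : ∀ p, _ = _) (D.ctr k X)
    intro p
    obtain ⟨q, rfl⟩ := (eqv (uT H.u₁ haa (ε * s))).surjective p
    simp only [LinearMap.comp_apply, LinearEquiv.coe_coe, LinearEquiv.symm_apply_apply]
    simp only [eqv_apply, uT_mulVec, LinearMap.add_apply, LinearMap.sub_apply, LinearMap.smul_apply,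
      LinearMap.comp_apply, LinearMap.smulRight_apply, CfsgLib.UnitCentres.upair_apply, map_add, map_smul,
      H.u₁.add_left, H.u₁.smul_left, haa, ← hzdef]
    module
  have hdiff : InM M (D.R ((-(ε * ε * (s * s - s) * z)) • (CfsgLib.UnitCentres.upair H.u₁ a).smulRight a) k) := by
    have h1 := hconj s hs
    have h2 := smul_root H hk hkk (hconj 1 (map_one τ)) (s := -s) (by rw [map_neg, hs])
    have h3 := smul_root H hk hkk h (s := s - 1) (by rw [map_sub, hs, map_one])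
    refine ((h1.add h2 fun X => TData.R_sq D hkk X).add h3 fun X => ?_).congr fun X => ?_
    · rw [LinearMap.add_apply, TData.R_sq D hkk, TData.R_sq D hkk, add_zero]
    · simp only [LinearMap.add_apply, TData.R_apply, LinearMap.sub_apply, LinearMap.smul_apply, map_add, map_sub,
        map_smul]
      module
  set C := -(ε * ε * (s * s - s) * z) with hCdef
  have hC : C ≠ 0 := neg_ne_zero.2 (mul_ne_zero (mul_ne_zero (mul_ne_zero hε hε)
    (by rw [show s * s - s = s * (s - 1) by ring]; exact mul_ne_zero hs0 (sub_ne_zero.2 hs1))) hz)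
  have hCt : C + τ C = 0 := by
    have e1 : τ ε = -ε := by linear_combination hεσ
    have e2 : τ z = -z := by linear_combination hzt
    simp only [hCdef, map_neg, map_mul, map_sub, hs, e1, e2]
    ring
  have hv : D.B (D.ten a k) (D.ten a k) = 0 := by rw [B_ten H, hkk, zero_mul]
  refine ⟨hv, fun c hc => ?_⟩
  have hfix : τ (c / C) = c / C := by
    rw [map_div₀, show τ c = -c by linear_combination hc, show τ C = -C by linear_combination hCt, neg_div_neg_eq]
  obtain ⟨e, he, heX⟩ := smul_root H hk hkk hdiff hfix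
  have : uT H.uB hv c = e := ext_mulVec fun X => by
    rw [uT_mulVec, heX, TData.R_apply, LinearMap.smul_apply, LinearMap.smul_apply, LinearMap.smulRight_apply,
      CfsgLib.UnitCentres.upair_apply, smul_smul, smul_smul, div_mul_cancel₀ _ hC, map_smul, LinearMap.smul_apply,
      ← D.B_ctr]
  rw [this]; exact he

variable (hns : ¬ Scal D M)
include hns

/-- Pure vectors with both factors isotropic are centres. -/
lemma centre_pure {a : κ₁ → F} {w : κ₂ → F} (haa : D.f₁ a a = 0) (hww : D.f₂ w w = 0) :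
    Centre H.uB M (D.ten a w) := by
  obtain ⟨k, hk, hkk, θ, hθ, hne⟩ : ∃ k, k ≠ 0 ∧ D.f₂ k k = 0 ∧ ∃ θ, InM M (D.R θ k) ∧
      ¬ ∃ c : F, ∀ u, θ u = c • u := by
    by_contra h
    exact hns fun k hk hkk θ hθ => by_contra fun hne => h ⟨k, hk, hkk, θ, hθ, hne⟩
  obtain ⟨a₁, ha₁, hz₁⟩ : ∃ a₁, D.f₁ a₁ a₁ = 0 ∧ D.f₁ (θ a₁) a₁ ≠ 0 := by
    by_contra! hall
    obtain ⟨a₁, b₁, -, haa₁, hbb₁, hab₁, hba₁⟩ := exists_hyp₁ H
    obtain ⟨ε, hε, hεσ⟩ := exists_traceZero H.u₁
    have heig : ∀ p q, D.f₁ p p = 0 → D.f₁ q q = 0 → D.f₁ p q = 1 → D.f₁ q p = 1 →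
        θ p = D.f₁ (θ p) q • p := fun p q hp hq hpq hqp => by
      have h := decomp₁ H hp hq hpq hqp (θ p)
      rwa [hall p hp, zero_smul, add_zero] at h
    have hsum : D.f₁ (a₁ + ε • b₁) (a₁ + ε • b₁) = 0 := by
      simp only [H.u₁.add_left, H.u₁.smul_left, add_right H.u₁, smul_right H.u₁, haa₁, hbb₁, hab₁, hba₁]
      linear_combination hεσ
    set p := D.f₁ (θ a₁) b₁
    set r := D.f₁ (θ b₁) a₁
    have e1 : θ a₁ = p • a₁ := heig a₁ b₁ haa₁ hbb₁ hab₁ hba₁
    have e2 : θ b₁ = r • b₁ := heig b₁ a₁ hbb₁ haa₁ hba₁ hab₁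
    have e3 : D.f₁ (θ (a₁ + ε • b₁)) (a₁ + ε • b₁) = 0 := hall _ hsum
    rw [map_add, map_smul, e1, e2] at e3
    simp only [H.u₁.add_left, H.u₁.smul_left, add_right H.u₁, smul_right H.u₁, haa₁, hbb₁, hab₁, hba₁] at e3
    have hpr : p = r := by
      have h1 : (r - p) * ε = 0 := by linear_combination e3 - p * hεσ
      exact (sub_eq_zero.1 ((mul_eq_zero.1 h1).resolve_right hε)).symm
    refine hne ⟨p, fun u => ?_⟩
    rw [decomp₁ H haa₁ hbb₁ hab₁ hba₁ u, map_add, map_smul, map_smul, e1, e2, ← hpr, smul_add, smul_comm p,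
      smul_comm p]
  have h₁ := centre_of_coef H hk hkk hθ ha₁ hz₁
  -- the other lines of the first factor
  have h₂ : Centre H.uB M (D.ten a k) := by
    by_cases hza : D.f₁ a a₁ = 0
    · have ha₁0 : a₁ ≠ 0 := fun h0 => hz₁ (by rw [h0, zero_right H.u₁])
      obtain ⟨b₁, hbb₁, hab₁, hba₁⟩ := exists_partner H.u₁ ha₁0 ha₁
      have h := decomp₁ H ha₁ hbb₁ hab₁ hba₁ a
      rw [hza, zero_smul, add_zero] at h
      rw [h, map_smul, LinearMap.smul_apply]
      exact h₁.smul _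
    · obtain ⟨hv, hc⟩ := h₁
      obtain ⟨ε, hε, hεσ⟩ := exists_traceZero H.u₁
      refine centre_of_coef H hk hkk (θ := ε • (CfsgLib.UnitCentres.upair H.u₁ a₁).smulRight a₁)
        ⟨_, hc ε hεσ, fun X => ?_⟩ haa ?_
      · rw [uT_mulVec, TData.R_apply, LinearMap.smul_apply, LinearMap.smulRight_apply,
          CfsgLib.UnitCentres.upair_apply, smul_smul, map_smul, LinearMap.smul_apply, D.B_ctr]
      · simp only [LinearMap.smul_apply, LinearMap.smulRight_apply, CfsgLib.UnitCentres.upair_apply,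
          H.u₁.smul_left]
        exact mul_ne_zero hε (mul_ne_zero hza fun h0 => hza (orth_comm H.u₁ h0))
  rcases eq_or_ne w 0 with rfl | hw
  · simpa using h₂.smul 0
  obtain ⟨e, he, b, hbk, -, hb⟩ := move₂ H hk hw hkk hww
  have h₃ := h₂.image he (H.iso e he)
  rwa [hb, hbk] at h₃

/-- Pure vectors with isotropic first factor are centres. -/
lemma centre_left {a : κ₁ → F} (haa : D.f₁ a a = 0) (z : κ₂ → F) : Centre H.uB M (D.ten a z) := by
  classical
  by_cases hzz : D.f₂ z z = 0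
  · exact centre_pure H hns haa hzz
  rcases eq_or_ne a 0 with rfl | ha
  · rw [map_zero, LinearMap.zero_apply, ← zero_smul F (D.ten (0 : κ₁ → F) (0 : κ₂ → F))]
    exact (centre_pure H hns haa (zero_left H.u₂ 0)).smul 0
  obtain ⟨a', ha'a', haa', ha'a⟩ := exists_partner H.u₁ ha haa
  -- split the second factor
  obtain ⟨y, hy, hzy⟩ : ∃ y, D.f₂ y y = 0 ∧ D.f₂ z y ≠ 0 := by
    by_contra! h
    refine hzz (Submodule.span_induction (p := fun x _ => D.f₂ z x = 0) (fun x hx => h x hx) (zero_right H.u₂ z)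
      (fun p q _ _ hp hq => by rw [add_right H.u₂, hp, hq, add_zero])
      (fun c p _ hp => by rw [smul_right H.u₂, hp, mul_zero]) (span_iso H.u₂ (by have := H.c₂; omega) z))
  obtain ⟨d, hd⟩ := exists_trace H.u₂ (norm_fixed H.u₂ z)
  set w := τ (d / D.f₂ z y) • y with hw
  set w₂ := z - w with hw₂
  have hww : D.f₂ w w = 0 := by rw [hw, H.u₂.smul_left, smul_right H.u₂, hy, mul_zero, mul_zero]
  have hzw : D.f₂ z w = d := by rw [hw, smul_right H.u₂, H.u₂.involutive, div_mul_cancel₀ _ hzy]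
  set π := D.f₂ w w₂ with hπ
  have hπd : π = τ d := by rw [hπ, hw₂, sub_right H.u₂, hww, sub_zero, H.u₂.herm w z, hzw]
  have hw₂w₂ : D.f₂ w₂ w₂ = 0 := by
    rw [hw₂, sub_left H.u₂, sub_right H.u₂, sub_right H.u₂, hww, sub_zero, hzw, H.u₂.herm w z, hzw]
    linear_combination -hd
  have hd0 : d ≠ 0 := fun h0 => hzz (by rw [← hd, h0, map_zero, add_zero])
  have hπ0 : π ≠ 0 := by rw [hπd]; simpa using hd0
  have hw₂w : D.f₂ w₂ w = τ π := by rw [H.u₂.herm, hπ]
  have hw0 : w ≠ 0 := fun h0 => hπ0 (by rw [hπ, h0, zero_left H.u₂])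
  clear_value w w₂
  obtain ⟨k', m, hk'k', hwk', hk'w, hwm, hk'm, hmm⟩ := exists_frame H hw0 hww
  set m' := m - (D.f₂ m w₂ / π) • w with hm'
  have hmw := orth_comm H.u₂ hwm
  have hm'w : D.f₂ m' w = 0 := by rw [hm', sub_left H.u₂, H.u₂.smul_left, hww, hmw, mul_zero, sub_zero]
  have hm'w₂ : D.f₂ m' w₂ = 0 := by
    rw [hm', sub_left H.u₂, H.u₂.smul_left, ← hπ, div_mul_cancel₀ _ hπ0, sub_self]
  have hm'm' : D.f₂ m' m' = D.f₂ m m := by
    rw [hm', sub_left H.u₂, H.u₂.smul_left, sub_right H.u₂, sub_right H.u₂, smul_right H.u₂, smul_right H.u₂,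
      hmw, hwm, hww]
    ring
  obtain ⟨R, hR, hR0, hR1⟩ : ∃ R : F, τ R = R ∧ R ≠ 0 ∧ 1 + R ≠ 0 := by
    obtain ⟨r, hr, hr0, hr1⟩ := H.three
    by_cases h : 1 + r = 0
    · exact ⟨1, map_one τ, one_ne_zero, fun h1 => hr1 (by linear_combination h - h1)⟩
    · exact ⟨r, hr, hr0, h⟩
  set p := τ (R * π / τ π) with hp
  obtain ⟨ζ, hζ⟩ := exists_norm_eq H (r := -(p * π + τ (p * π)) / D.f₂ m' m')
    (by rw [map_div₀, map_neg, map_add, H.u₂.involutive, norm_fixed H.u₂, add_comm])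
  set w' := p • w + w₂ + ζ • m' with hw'
  clear_value m' p w'
  have hτπ : τ π ≠ 0 := by simpa using hπ0
  have hw'w' : D.f₂ w' w' = 0 := by
    have hne : D.f₂ m' m' ≠ 0 := by rwa [hm'm']
    have e : ζ * τ ζ * D.f₂ m' m' = -(p * π + τ (p * π)) := by rw [hζ, div_mul_cancel₀ _ hne]
    rw [hw']
    simp only [H.u₂.add_left, H.u₂.smul_left, add_right H.u₂, smul_right H.u₂, hww, hw₂w₂, hm'w, hm'w₂,
      orth_comm H.u₂ hm'w, orth_comm H.u₂ hm'w₂, ← hπ, hw₂w]
    rw [map_mul] at e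
    linear_combination e
  have hww' : D.f₂ w w' = π := by
    rw [hw', add_right H.u₂, add_right H.u₂, smul_right H.u₂, smul_right H.u₂, hww, orth_comm H.u₂ hm'w]
    simp [← hπ]
  have hw₂w' : D.f₂ w₂ w' = R * π := by
    rw [hw', add_right H.u₂, add_right H.u₂, smul_right H.u₂, smul_right H.u₂, hw₂w₂, orth_comm H.u₂ hm'w₂, hw₂w,
      hp, H.u₂.involutive, div_mul_cancel₀ _ hτπ]
    simp
  set w'' := (τ π)⁻¹ • w' with hw''
  have h1 : D.f₂ w w'' = 1 := by rw [hw'', smul_right H.u₂, hww', map_inv₀, H.u₂.involutive, inv_mul_cancel₀ hπ0]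
  have h2 : D.f₂ w₂ w'' = R := by
    rw [hw'', smul_right H.u₂, hw₂w', map_inv₀, H.u₂.involutive]; field_simp
  have hw''w'' : D.f₂ w'' w'' = 0 := by rw [hw'', H.u₂.smul_left, smul_right H.u₂, hw'w', mul_zero, mul_zero]
  obtain ⟨ε, hε, hεσ⟩ := exists_traceZero H.u₁
  have e1 : τ ε = -ε := by linear_combination hεσ
  obtain ⟨huu, hu⟩ := centre_pure H hns ha'a' hw''w''
  obtain ⟨hrr, hr⟩ := centre_pure H hns haa hw₂w₂
  -- three transvections
  have hY := (centre_pure H hns haa hww).image (hu ε hεσ) (uT_iso H.uB huu hεσ)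
  rw [uT_mulVec, B_ten H, h1, haa', one_mul, mul_one] at hY
  have hc2 : (ε * R)⁻¹ + τ (ε * R)⁻¹ = 0 := by
    rw [map_inv₀, map_mul, e1, hR, neg_mul, inv_neg, add_neg_cancel]
  have hY' := hY.image (hr _ hc2) (uT_iso H.uB hrr hc2)
  rw [uT_mulVec, H.uB.add_left, H.uB.smul_left, B_ten H, B_ten H, haa, ha'a, mul_zero, zero_add, mul_one,
    H.u₂.herm w'' w₂, h2, hR, inv_mul_cancel₀ (mul_ne_zero hε hR0), one_smul] at hY'
  have hc3 : -ε / (1 + R) + τ (-ε / (1 + R)) = 0 := by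
    rw [map_div₀, map_neg, map_add, map_one, hR, e1, ← add_div, neg_neg, neg_add_cancel, zero_div]
  have hY'' := hY'.image (hu _ hc3) (uT_iso H.uB huu hc3)
  rw [uT_mulVec, H.uB.add_left, H.uB.add_left, H.uB.smul_left, B_ten H, B_ten H, B_ten H, h1, h2, hw''w'', haa',
    zero_mul, mul_zero, add_zero, one_mul, mul_one, div_mul_cancel₀ _ hR1] at hY''
  convert hY'' using 1
  rw [show z = w + w₂ by rw [hw₂]; abel, map_add]
  module

/-- Isotropic vectors are centres. -/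
theorem centre {Y : ι → F} (hY : D.B Y Y = 0) : Centre H.uB M Y := by
  classical
  obtain ⟨a, b, ha, haa, hbb, hab, hba⟩ := exists_hyp₁ H
  obtain ⟨ε, hε, hεσ⟩ := exists_traceZero H.u₁
  have e1 : τ ε = -ε := by linear_combination hεσ
  -- two pure parts that are not orthogonal
  have hline : ∀ p q r s, D.f₁ p p = 0 → D.f₁ q q = 0 → D.f₁ p q ≠ 0 → D.f₂ r s ≠ 0 →
      D.B (D.ten p r + D.ten q s) (D.ten p r + D.ten q s) = 0 → Centre H.uB M (D.ten p r + D.ten q s) := by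
    intro p q r s hp hq hpq hrs hiso
    have h := (centre_left H hns hp r).line (centre_left H hns hq s)
      (by rw [B_ten H]; exact mul_ne_zero hrs hpq) (a := 1) (b := 1) (by rwa [one_smul, one_smul])
    rwa [one_smul, one_smul] at h
  set r := D.cut (CfsgLib.UnitCentres.upair H.u₁ b) Y with hr
  set s := D.cut (CfsgLib.UnitCentres.upair H.u₁ a) Y with hs
  have hdec : Y = D.ten a r + D.ten b s := by
    refine sub_eq_zero.1 (D.ctr_ext _ fun y => ?_)
    rw [map_sub, map_add, D.ctr_ten, D.ctr_ten, hr, hs, D.cut_ctr, D.cut_ctr, CfsgLib.UnitCentres.upair_apply,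
      CfsgLib.UnitCentres.upair_apply, ← decomp₁ H haa hbb hab hba, sub_self]
  rw [hdec] at hY ⊢
  by_cases hrs : D.f₂ r s = 0
  swap
  · exact hline a b r s haa hbb (by rw [hab]; exact one_ne_zero) hrs hY
  have hτε : τ ε ≠ 0 := by simpa using hε
  by_cases hrr : D.f₂ r r = 0
  swap
  · have e : D.ten a r + D.ten b s = D.ten (a + ε • b) r + D.ten b (s - ε • r) := by
      simp only [map_add, map_sub, map_smul, LinearMap.add_apply, LinearMap.smul_apply]; abel
    rw [e] at hY ⊢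
    refine hline _ b r _ ?_ hbb ?_ ?_ hY
    · simp [H.u₁.add_left, H.u₁.smul_left, add_right H.u₁, smul_right H.u₁, haa, hbb, hab, hba, e1]
    · simp [H.u₁.add_left, H.u₁.smul_left, hab, hbb]
    · rw [sub_right H.u₂, smul_right H.u₂, hrs, zero_sub, neg_ne_zero]; exact mul_ne_zero hτε hrr
  by_cases hss : D.f₂ s s = 0
  swap
  · have e : D.ten a r + D.ten b s = D.ten (b + ε • a) s + D.ten a (r - ε • s) := by
      simp only [map_add, map_sub, map_smul, LinearMap.add_apply, LinearMap.smul_apply]; abel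
    rw [e] at hY ⊢
    refine hline _ a s _ ?_ haa ?_ ?_ hY
    · simp [H.u₁.add_left, H.u₁.smul_left, add_right H.u₁, smul_right H.u₁, haa, hbb, hab, hba, e1]
    · simp [H.u₁.add_left, H.u₁.smul_left, hba, haa]
    · rw [sub_right H.u₂, smul_right H.u₂, orth_comm H.u₂ hrs, zero_sub, neg_ne_zero]; exact mul_ne_zero hτε hss
  rcases eq_or_ne r 0 with hr0 | hr0
  · rw [hr0, map_zero, zero_add]
    exact centre_left H hns hbb s
  obtain ⟨r', m, hr'r', hrr', hr'r, hrm, hr'm, hmm⟩ := exists_frame H hr0 hrr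
  have hsdec := decomp H hrr hr'r' hrr' hr'r hrm hr'm hmm s
  rw [orth_comm H.u₂ hrs, zero_smul, add_zero] at hsdec
  obtain ⟨c, hsc⟩ : ∃ c : F, s = c • r := by
    set x := D.f₂ s m / D.f₂ m m
    set l := D.f₂ s r'
    have h := hss
    rw [hsdec] at h
    simp only [H.u₂.add_left, H.u₂.smul_left, add_right H.u₂, smul_right H.u₂, hrr, hrm, orth_comm H.u₂ hrm,
      mul_zero, zero_add, add_zero] at h
    have hx : x = 0 := by simpa [hmm] using h
    exact ⟨l, by rw [hsdec, hx, zero_smul, add_zero]⟩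
  rcases eq_or_ne c 0 with hc | hc
  · rw [hsc, hc, zero_smul, map_zero, add_zero]
    exact centre_left H hns haa r
  have hτc : τ c ≠ 0 := by simpa using hc
  set t := ε / τ c with ht
  have hu := centre_left H hns haa (t • r')
  have hYu : D.B (D.ten a (t • r')) (D.ten a r + D.ten b s) = ε := by
    rw [add_right H.uB, B_ten H, B_ten H, haa, mul_zero, zero_add, hab, mul_one, hsc, smul_right H.u₂,
      H.u₂.smul_left, hr'r, mul_one, ht, mul_div_cancel₀ _ hτc]
  refine hu.of_move ?_ (by rw [hYu]; exact hε) hY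
  have hd : D.ten a r + D.ten b s - D.ten a (t • r') = D.ten a (r - t • r') + D.ten b s := by
    rw [map_sub]; abel
  rw [hd]
  refine hline a b _ s haa hbb (by rw [hab]; exact one_ne_zero) ?_ ?_
  · rw [sub_left H.u₂, hrs, zero_sub, neg_ne_zero, hsc, smul_right H.u₂, H.u₂.smul_left, hr'r, mul_one]
    exact mul_ne_zero hτc (div_ne_zero hε hτc)
  · rw [← hd, sub_left H.uB, sub_right H.uB, sub_right H.uB, hY, hYu, H.uB.herm _ (D.ten a (t • r')), hYu,
      hu.iso, e1]
    ring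

end CfsgLib.SUSix96.Tensor23
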