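import Cfsg.Agent.SUSix96.TensorDescent
import Cfsg.Agent.SUSix96.TensorCentres
import Cfsg.Agent.UnitTensor96.MatrixForm

/-!
For `q ≥ 3` the stabiliser of a decomposition of the six-dimensional unitary space as the tensor product of a plane
and a three-space is maximal in the special unitary group.
-/

set_option autoImplicit false
set_option linter.unusedSectionVars false

namespace CfsgLib.SUSix96.Tensor23

open Module Matrix Cfsg.Geo
open CfsgLib.FormTensor89
open CfsgLib.UnitCentres (Iso)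
open CfsgLib.UnitTensor96 (unitary_of_pow isFactor_of_unitary fixed_of_tensor exists_lift exists_fixed_scalar
  not_le_tensor)

variable {F : Type*} [Field F] [Fintype F] {n q : ℕ}

/-- Fixed scalars are squares. -/
lemma exists_sqrt_fixed (hF : Fintype.card F = q ^ 2) {τ : F ≃+* F} {κ : Type} [Fintype κ]
    {f : (κ → F) → (κ → F) → F} (hf : IsUnitaryForm τ f) (hτ : ∀ a, τ a = a ^ q) (x : F) (hx : τ x = x) :
    ∃ y, y * y = x := by
  rcases Nat.even_or_odd q with hq | ⟨j, hj⟩
  · have h2 : ringChar F = 2 := FiniteField.even_card_iff_char_two.2 (Nat.even_iff.1 (by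
      rw [hF, Nat.even_pow' two_ne_zero]; exact hq))
    obtain ⟨y, hy⟩ := FiniteField.isSquare_of_char_two h2 x
    exact ⟨y, hy.symm⟩
  · classical
    obtain ⟨l, hl⟩ := CfsgLib.UnitCentres.exists_norm hf hx
    exact ⟨l ^ (j + 1), by rw [← hl, hτ, hj, ← pow_add, ← pow_succ']; congr 1; omega⟩

/-- The stabiliser of a two by three unitary tensor decomposition is maximal. -/
theorem tensor23_isMaximal (hF : Fintype.card F = q ^ 2) (hq : 3 ≤ q) (e : Fin n ≃ Fin 2 × Fin 3)
    (P : GL (Fin n) F) {f₁ : (Fin 2 → F) → (Fin 2 → F) → F} {f₂ : (Fin 3 → F) → (Fin 3 → F) → F}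
    (hf₁ : IsUnitaryFormPow q f₁) (hf₂ : IsUnitaryFormPow q f₂)
    (hT : IsTensorFormStructure (fun x : F => x ^ q) (Cfsg.hermForm n F q) f₁ f₂ e P) :
    IsMaximalIn (Cfsg.GU n F q ⊓ specialLinear (Fin n) F)
      (tensorProductSubgroup 2 3 e P ⊓ (Cfsg.GU n F q ⊓ specialLinear (Fin n) F)) := by
  classical
  obtain ⟨c, hc, hcT⟩ := hT
  obtain ⟨τ, hτ, hB⟩ := CfsgLib.LinAlg.Witt.exists_isUnitaryForm_hermForm (n := n) hF
  have hten₀ : ∀ u z u' z', Cfsg.hermForm n F q (tenLin e P u z) (tenLin e P u' z')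
      = c * (f₁ u u' * f₂ z z') := fun u z u' z' => by
    rw [tenLin_apply, tenLin_apply, hcT, CfsgLib.Unitary.unitary_formOfGram_pureTen hF hf₁ hf₂]
  have hcτ := fixed_of_tensor hB hf₁ hf₂ hτ (by norm_num) (by norm_num) e P hten₀
  set f₁' : (Fin 2 → F) → (Fin 2 → F) → F := fun x y => c * f₁ x y with hf₁'def
  have hu₁ : IsUnitaryForm τ f₁' := unitary_of_pow hB.ne_refl hB.involutive hτ hf₁ hc hcτ
  have hu₂ : IsUnitaryForm τ f₂ := by
    simpa only [one_mul] using unitary_of_pow hB.ne_refl hB.involutive hτ hf₂ one_ne_zero (map_one τ)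
  have hten : ∀ u z u' z', Cfsg.hermForm n F q (tenLin e P u z) (tenLin e P u' z') = f₁' u u' * f₂ z z' :=
    fun u z u' z' => by rw [hten₀, hf₁'def, mul_assoc]
  set D := mkData e P (τ : F →+* F) hB.involutive 1 one_ne_zero (Cfsg.hermForm n F q) (isFactor_of_unitary hu₁)
    (isFactor_of_unitary hu₂) (fun x y => by rw [one_mul]; exact hu₂.herm x y) hB.add_left hB.smul_left
    (fun X Y Z => CfsgLib.UnitCentres.add_right hB X Y Z) hten
  have hcard := Fintype.card_congr e
  rw [Fintype.card_prod, Fintype.card_fin, Fintype.card_fin, Fintype.card_fin] at hcard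
  refine ⟨lt_of_le_of_ne inf_le_right fun h => not_le_tensor hB le_rfl (by norm_num) e P hu₁ hu₂ D rfl rfl rfl rfl
    (h.ge.trans inf_le_left), fun M hle hMU => ?_⟩
  have H : S23 D τ M :=
    { hσ := fun _ => rfl
      u₁ := hu₁
      u₂ := hu₂
      uB := hB
      iso := fun g hg => (CfsgLib.UnitCentres.mem_special.1 (hMU hg)).1
      l₁ := fun a ha hsa => by
        obtain ⟨g, hg, hgX⟩ := exists_lift hB e P hten (b := 1) ha (fun x y => by simp) hsa (one_mem _)
        exact ⟨g, hle hg, fun u z => (hgX u z).trans (by rw [Units.val_one, one_mulVec]; rfl)⟩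
      l₂ := fun b hb hsb => by
        obtain ⟨g, hg, hgX⟩ := exists_lift hB e P hten (a := 1) (fun x y => by simp) hb (one_mem _) hsb
        exact ⟨g, hle hg, fun u z => (hgX u z).trans (by rw [Units.val_one, one_mulVec]; rfl)⟩
      c₁ := Fintype.card_fin 2
      c₂ := Fintype.card_fin 3
      six := by rw [Fintype.card_fin, hcard]
      le_sl := fun g hg => (hMU hg).2
      full := fun g hg hiso hten' => by
        obtain ⟨α, β, hαβ⟩ := hten'
        exact hle ⟨mem_tensor_of_pure (by norm_num) e P g α β hαβ, CfsgLib.UnitCentres.mem_special.2 ⟨hiso, hg⟩⟩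
      three := exists_fixed_scalar hF hq hB.involutive hτ
      sqf := exists_sqrt_fixed hF hB hτ }
  by_cases hsc : Scal D M
  · refine Or.inl (le_antisymm (le_inf (fun g hg => ?_) hMU) hle)
    obtain ⟨α, β, hαβ⟩ := ten_of_mem H hsc hg
    exact mem_tensor_of_pure (by norm_num) e P g α β hαβ
  · exact Or.inr (le_antisymm hMU
      (CfsgLib.UnitCentres.gu_le_of_centres hF (by omega) hτ hB fun v hv => centre H hsc hv))

end CfsgLib.SUSix96.Tensor23
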