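import Cfsg.Agent.UnitTensor96.Basic
import Cfsg.Agent.FormTensor89.Instance

/-!
A six-dimensional unitary space that is the tensor product of a unitary plane and a unitary three-space,
and a group containing the stabiliser of this decomposition in the special unitary group.
-/

set_option autoImplicit false
set_option linter.unusedSectionVars false

namespace CfsgLib.SUSix96.Tensor23

open Module Matrix
open CfsgLib.FormTensor89
open CfsgLib.UnitTensor96 (exists_partner exists_iso_mem exists_iso_dual exists_aniso_perp exists_special_map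
  eqv finrank_perp finrank_perp_ge span_iso)
open CfsgLib.UnitCentres (add_right smul_right zero_left zero_right sub_left sub_right orth_comm norm_fixed
  upair perp exists_trace exists_traceZero Iso uT uT_mulVec uT_iso uT_mem_specialLinear)
open CfsgLib.TransvGL (transv transv_mulVec transv_mem_specialLinear)

variable {ι κ₁ κ₂ : Type} [Fintype ι] [DecidableEq ι] [Fintype κ₁] [DecidableEq κ₁] [Fintype κ₂]
  [DecidableEq κ₂] {F : Type*} [Field F] [Finite F] {τ : F ≃+* F}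

/-- `g` acts factorwise. -/
def Ten (D : TData ι F (κ₁ → F) (κ₂ → F)) (g : GL ι F) : Prop :=
  ∃ (α : (κ₁ → F) ≃ₗ[F] (κ₁ → F)) (β : (κ₂ → F) →ₗ[F] (κ₂ → F)),
    ∀ u z, (g : Matrix ι ι F) *ᵥ D.ten u z = D.ten (α u) (β z)

/-- The hypotheses. -/
structure S23 (D : TData ι F (κ₁ → F) (κ₂ → F)) (τ : F ≃+* F) (M : Subgroup (GL ι F)) : Prop where
  hσ : ∀ a, D.σ a = τ a
  u₁ : Cfsg.Geo.IsUnitaryForm τ D.f₁
  u₂ : Cfsg.Geo.IsUnitaryForm τ D.f₂
  uB : Cfsg.Geo.IsUnitaryForm τ D.B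
  iso : ∀ g ∈ M, Iso D.B g
  l₁ : ∀ a : GL κ₁ F, Iso D.f₁ a → a ∈ Cfsg.Geo.specialLinear κ₁ F →
    ∃ g ∈ M, ∀ u z, (g : Matrix ι ι F) *ᵥ D.ten u z = D.ten ((a : Matrix κ₁ κ₁ F) *ᵥ u) z
  l₂ : ∀ b : GL κ₂ F, Iso D.f₂ b → b ∈ Cfsg.Geo.specialLinear κ₂ F →
    ∃ g ∈ M, ∀ u z, (g : Matrix ι ι F) *ᵥ D.ten u z = D.ten u ((b : Matrix κ₂ κ₂ F) *ᵥ z)
  c₁ : Fintype.card κ₁ = 2
  c₂ : Fintype.card κ₂ = 3
  six : Fintype.card ι = 6
  le_sl : M ≤ Cfsg.Geo.specialLinear ι F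
  full : ∀ g ∈ Cfsg.Geo.specialLinear ι F, Iso D.B g → Ten D g → g ∈ M
  three : ∃ k : F, τ k = k ∧ k ≠ 0 ∧ k ≠ 1
  sqf : ∀ x : F, τ x = x → ∃ y, y * y = x

/-- Every root element of `M` has a scalar coefficient. -/
def Scal (D : TData ι F (κ₁ → F) (κ₂ → F)) (M : Subgroup (GL ι F)) : Prop :=
  ∀ k, k ≠ 0 → D.f₂ k k = 0 → ∀ θ, InM M (D.R θ k) → ∃ c : F, ∀ u, θ u = c • u

/-- An endomorphism with every vector an eigenvector is a scalar. -/
lemma scalar_of_eigen {V : Type*} [AddCommGroup V] [Module F V] (δ : V →ₗ[F] V)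
    (h : ∀ v, v ≠ 0 → ∃ l : F, δ v = l • v) : ∃ l : F, ∀ v, δ v = l • v := by
  by_cases hz : ∀ v : V, v = 0
  · exact ⟨0, fun v => by rw [hz v, map_zero, smul_zero]⟩
  push Not at hz
  obtain ⟨u, hu⟩ := hz
  obtain ⟨l, hl⟩ := h u hu
  refine ⟨l, fun v => ?_⟩
  by_cases hv : v ∈ Submodule.span F {u}
  · obtain ⟨c, rfl⟩ := Submodule.mem_span_singleton.1 hv
    rw [map_smul, hl, smul_comm]
  · have hv0 : v ≠ 0 := fun h0 => hv (h0 ▸ zero_mem _)
    obtain ⟨m, hm⟩ := h v hv0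
    obtain ⟨n, hn⟩ := h (u + v) fun h0 => hv (by
      rw [eq_neg_of_add_eq_zero_right h0]; exact neg_mem (Submodule.mem_span_singleton_self u))
    rw [map_add, hl, hm, smul_add] at hn
    by_cases hmn : m = n
    · rw [hmn, add_left_inj] at hn
      rw [hm, hmn, smul_left_injective F hu hn]
    · exfalso
      have h1 : (m - n) • v = (n - l) • u := by linear_combination (norm := module) hn
      exact hv (Submodule.mem_span_singleton.2 ⟨(m - n)⁻¹ * (n - l), by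
        rw [← smul_smul, ← h1, inv_smul_smul₀ (sub_ne_zero.2 hmn)]⟩)

variable {D : TData ι F (κ₁ → F) (κ₂ → F)} {M : Subgroup (GL ι F)} (H : S23 D τ M)
include H

lemma B_ten (u u' : κ₁ → F) (z z' : κ₂ → F) :
    D.B (D.ten u z) (D.ten u' z') = D.f₂ z z' * D.f₁ u u' := by
  rw [D.B_ctr, D.ctr_ten, D.f₁_smul_left]

lemma B_ten_left (u : κ₁ → F) (z : κ₂ → F) (X : ι → F) :
    D.B (D.ten u z) X = τ (D.f₁ (D.ctr z X) u) := by rw [H.uB.herm, D.B_ctr]

lemma ctr_smul' (c : F) (z : κ₂ → F) (X : ι → F) : D.ctr (c • z) X = τ c • D.ctr z X := by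
  rw [D.ctr_smul, H.hσ]

lemma exists_frame {k : κ₂ → F} (hk : k ≠ 0) (hkk : D.f₂ k k = 0) :
    ∃ k' m, D.f₂ k' k' = 0 ∧ D.f₂ k k' = 1 ∧ D.f₂ k' k = 1 ∧ D.f₂ k m = 0 ∧ D.f₂ k' m = 0 ∧
      D.f₂ m m ≠ 0 := by
  classical
  obtain ⟨k', hk'k', hkk', hk'k⟩ := exists_partner H.u₂ hk hkk
  have hd : finrank F ↥(Submodule.span F ({k, k'} : Set (κ₂ → F))) ≤ 2 := by
    have h := CfsgLib.UnitTensor96.finrank_span_le (F := F) ({k, k'} : Finset (κ₂ → F))
    rw [Finset.coe_pair] at h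
    exact h.trans Finset.card_le_two
  obtain ⟨m, hm, hmm⟩ := exists_aniso_perp H.u₂ (Submodule.span F ({k, k'} : Set (κ₂ → F))) (fun x hx h => by
    obtain ⟨a, b, rfl⟩ := Submodule.mem_span_pair.1 hx
    have h1 := h k' (Submodule.subset_span (by simp))
    have h2 := h k (Submodule.subset_span (by simp))
    simp only [H.u₂.add_left, H.u₂.smul_left, hkk', hk'k', mul_one, mul_zero, add_zero] at h1
    simp only [H.u₂.add_left, H.u₂.smul_left, hkk, hk'k, mul_one, mul_zero, zero_add] at h2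
    rw [h1, h2, zero_smul, zero_smul, add_zero]) (by have := H.c₂; omega)
  exact ⟨k', m, hk'k', hkk', hk'k, orth_comm H.u₂ (hm k (Submodule.subset_span (by simp))),
    orth_comm H.u₂ (hm k' (Submodule.subset_span (by simp))), hmm⟩

/-- Coordinates with respect to a frame. -/
lemma decomp {k k' m : κ₂ → F} (hkk : D.f₂ k k = 0) (hk'k' : D.f₂ k' k' = 0) (hkk' : D.f₂ k k' = 1)
    (hk'k : D.f₂ k' k = 1) (hkm : D.f₂ k m = 0) (hk'm : D.f₂ k' m = 0) (hmm : D.f₂ m m ≠ 0) (z : κ₂ → F) :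
    z = D.f₂ z k' • k + D.f₂ z k • k' + (D.f₂ z m / D.f₂ m m) • m := by
  classical
  set S := ({k, k', m} : Set (κ₂ → F))
  have hmk := orth_comm H.u₂ hkm
  have hmk' := orth_comm H.u₂ hk'm
  have hli : LinearIndependent F ![k, k', m] := by
    rw [Fintype.linearIndependent_iff]
    intro g hg
    simp only [Fin.sum_univ_three, Matrix.cons_val_zero, Matrix.cons_val_one, Matrix.cons_val] at hg
    have g1 : g 0 = 0 := by
      simpa [H.u₂.add_left, H.u₂.smul_left, hkk', hk'k', hmk', zero_left H.u₂] using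
        congrArg (fun y => D.f₂ y k') hg
    have g2 : g 1 = 0 := by
      simpa [H.u₂.add_left, H.u₂.smul_left, hkk, hk'k, hmk, zero_left H.u₂] using
        congrArg (fun y => D.f₂ y k) hg
    have g3 : g 2 = 0 := by
      simpa [H.u₂.add_left, H.u₂.smul_left, hkm, hk'm, hmm, zero_left H.u₂] using
        congrArg (fun y => D.f₂ y m) hg
    intro i; fin_cases i <;> assumption
  have hspan : Submodule.span F (Set.range ![k, k', m]) = ⊤ :=
    hli.span_eq_top_of_card_eq_finrank (by rw [Fintype.card_fin, Module.finrank_fintype_fun_eq_card, H.c₂])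
  obtain ⟨c, hc⟩ := (Submodule.mem_span_range_iff_exists_fun F).1 (show z ∈ _ by rw [hspan]; trivial)
  rw [Fin.sum_univ_three] at hc
  simp only [Matrix.cons_val_zero, Matrix.cons_val_one, Matrix.cons_val] at hc
  subst hc
  simp [H.u₂.add_left, H.u₂.smul_left, hkk, hk'k', hkk', hk'k, hkm, hk'm, hmk, hmk', hmm]

/-- Two linear maps agreeing on the three members of a frame agree. -/
lemma ext_frame {k k' m : κ₂ → F} (hkk : D.f₂ k k = 0) (hk'k' : D.f₂ k' k' = 0) (hkk' : D.f₂ k k' = 1)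
    (hk'k : D.f₂ k' k = 1) (hkm : D.f₂ k m = 0) (hk'm : D.f₂ k' m = 0) (hmm : D.f₂ m m ≠ 0)
    {V : Type*} [AddCommGroup V] [Module F V] {f g : (ι → F) →ₗ[F] V}
    (h1 : ∀ u, f (D.ten u k) = g (D.ten u k)) (h2 : ∀ u, f (D.ten u m) = g (D.ten u m))
    (h3 : ∀ u, f (D.ten u k') = g (D.ten u k')) : f = g := by
  refine LinearMap.ext_on D.ten_span ?_
  rintro _ ⟨u, z, rfl⟩
  rw [decomp H hkk hk'k' hkk' hk'k hkm hk'm hmm z]
  simp only [map_add, map_smul, h1, h2, h3]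

/-- Two elements agreeing on the three members of a frame are equal. -/
lemma mulVec_ext_frame {k k' m : κ₂ → F} (hkk : D.f₂ k k = 0) (hk'k' : D.f₂ k' k' = 0) (hkk' : D.f₂ k k' = 1)
    (hk'k : D.f₂ k' k = 1) (hkm : D.f₂ k m = 0) (hk'm : D.f₂ k' m = 0) (hmm : D.f₂ m m ≠ 0) {g : GL ι F}
    {f : (ι → F) →ₗ[F] (ι → F)} (h1 : ∀ u, (g : Matrix ι ι F) *ᵥ D.ten u k = f (D.ten u k))
    (h2 : ∀ u, (g : Matrix ι ι F) *ᵥ D.ten u m = f (D.ten u m))
    (h3 : ∀ u, (g : Matrix ι ι F) *ᵥ D.ten u k' = f (D.ten u k')) (X : ι → F) :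
    (g : Matrix ι ι F) *ᵥ X = f X :=
  LinearMap.congr_fun (ext_frame H hkk hk'k' hkk' hk'k hkm hk'm hmm (f := (g : Matrix ι ι F).mulVecLin)
    (g := f) (fun u => h1 u) (fun u => h2 u) (fun u => h3 u)) X

lemma exists_hyp₁ : ∃ a b, a ≠ 0 ∧ D.f₁ a a = 0 ∧ D.f₁ b b = 0 ∧ D.f₁ a b = 1 ∧ D.f₁ b a = 1 := by
  obtain ⟨a, -, ha, haa⟩ := exists_iso_mem H.u₁ (⊤ : Submodule F (κ₁ → F))
    (by rw [finrank_top, Module.finrank_fintype_fun_eq_card, H.c₁])
  obtain ⟨b, hbb, hab, hba⟩ := exists_partner H.u₁ ha haa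
  exact ⟨a, b, ha, haa, hbb, hab, hba⟩

lemma decomp₁ {a b : κ₁ → F} (haa : D.f₁ a a = 0) (hbb : D.f₁ b b = 0) (hab : D.f₁ a b = 1)
    (hba : D.f₁ b a = 1) (x : κ₁ → F) : x = D.f₁ x b • a + D.f₁ x a • b := by
  have hli : LinearIndependent F ![a, b] := LinearIndependent.pair_iff.2 fun p r hpr => by
    constructor
    · simpa [H.u₁.add_left, H.u₁.smul_left, hab, hbb, zero_left H.u₁] using congrArg (fun y => D.f₁ y b) hpr
    · simpa [H.u₁.add_left, H.u₁.smul_left, haa, hba, zero_left H.u₁] using congrArg (fun y => D.f₁ y a) hpr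
  have hspan : Submodule.span F (Set.range ![a, b]) = ⊤ :=
    hli.span_eq_top_of_card_eq_finrank (by rw [Fintype.card_fin, Module.finrank_fintype_fun_eq_card, H.c₁])
  obtain ⟨c, hc⟩ := (Submodule.mem_span_range_iff_exists_fun F).1 (show x ∈ _ by rw [hspan]; trivial)
  rw [Fin.sum_univ_two] at hc
  simp only [Matrix.cons_val_zero, Matrix.cons_val_one] at hc
  subst hc
  simp [H.u₁.add_left, H.u₁.smul_left, haa, hbb, hab, hba]

/-- An isotropic vector orthogonal to one given vector. -/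
lemma exists_iso_orth (z : κ₂ → F) : ∃ k, k ≠ 0 ∧ D.f₂ k k = 0 ∧ D.f₂ z k = 0 := by
  classical
  have h := finrank_perp_ge H.u₂ ({z} : Finset (κ₂ → F))
  obtain ⟨k, hkP, hk, hkk⟩ := exists_iso_mem H.u₂ (perp H.u₂ (({z} : Finset (κ₂ → F)) : Set (κ₂ → F)))
    (by rw [Finset.card_singleton] at h; have := H.c₂; omega)
  exact ⟨k, hk, hkk, orth_comm H.u₂ (hkP z (by simp))⟩

lemma exists_norm_eq {r : F} (hr : τ r = r) : ∃ l : F, l * τ l = r :=
  CfsgLib.UnitCentres.exists_norm H.u₁ hr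

/-- Root elements with scalar coefficients. -/
lemma root {c : F} (hc : c + τ c = 0) {k : κ₂ → F} (hkk : D.f₂ k k = 0) :
    InM M (D.R (c • LinearMap.id) k) := by
  obtain ⟨g, hg, hgX⟩ := H.l₂ _ (uT_iso H.u₂ hkk hc) (uT_mem_specialLinear H.u₂ hkk c)
  refine ⟨g, hg, fun X => ?_⟩
  refine LinearMap.congr_fun (f := (g : Matrix ι ι F).mulVecLin)
    (g := LinearMap.id + D.R (c • LinearMap.id) k) (LinearMap.ext_on D.ten_span ?_) X
  rintro _ ⟨u, z, rfl⟩
  simp [hgX, uT_mulVec, D.ctr_ten, smul_smul, mul_comm]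

/-- Moving isotropic vectors of the second factor. -/
lemma move₂ {k k' : κ₂ → F} (hk : k ≠ 0) (hk' : k' ≠ 0) (hkk : D.f₂ k k = 0) (hkk' : D.f₂ k' k' = 0) :
    ∃ g ∈ M, ∃ b : (κ₂ → F) ≃ₗ[F] (κ₂ → F), b k = k' ∧ (∀ x y, D.f₂ (b x) (b y) = D.f₂ x y) ∧
      ∀ u z, (g : Matrix ι ι F) *ᵥ D.ten u z = D.ten u (b z) := by
  obtain ⟨b, hb, hbs, hbk⟩ := exists_special_map H.u₂ (by rw [H.c₂]) hk hk' hkk hkk'
  obtain ⟨g, hg, hgX⟩ := H.l₂ b hb hbs
  exact ⟨g, hg, eqv b, hbk, hb, hgX⟩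

/-- Inverse of a factorwise element. -/
lemma Ten.inv' {g : GL ι F} (h : Ten D g) : Ten D g⁻¹ := by
  obtain ⟨α, β, hαβ⟩ := h
  obtain ⟨u₀, -, hu₀, -⟩ := exists_hyp₁ H
  have hinj : Function.Injective β := (injective_iff_map_eq_zero β).2 fun z hz => by
    have h1 : D.ten u₀ z = 0 := mulVec_injective g (by simp [hαβ, hz])
    exact D.ten_eq_zero_right hu₀ h1
  let b := LinearEquiv.ofInjectiveEndo β hinj
  refine ⟨α.symm, b.symm.toLinearMap, fun u z => mulVec_injective g ?_⟩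
  dsimp only
  have hb : β (b.symm z) = z := b.apply_symm_apply z
  rw [mulVec_inv, hαβ, LinearEquiv.coe_coe, α.apply_symm_apply, hb]

lemma Ten.mul' {g g' : GL ι F} (h : Ten D g) (h' : Ten D g') : Ten D (g * g') := by
  obtain ⟨α, β, hαβ⟩ := h
  obtain ⟨α', β', hαβ'⟩ := h'
  exact ⟨α'.trans α, β ∘ₗ β', fun u z => by rw [mul_mulVec, hαβ', hαβ]; rfl⟩

/-- A factorwise element fixing a four-space is the identity on the first factor. -/
lemma Ten.of_fixed {g : GL ι F} (h : Ten D g) {S : Submodule F (ι → F)} (hS : 4 ≤ finrank F S)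
    (hfix : ∀ X ∈ S, (g : Matrix ι ι F) *ᵥ X = X) :
    ∃ b : (κ₂ → F) →ₗ[F] (κ₂ → F), ∀ u z, (g : Matrix ι ι F) *ᵥ D.ten u z = D.ten u (b z) := by
  obtain ⟨α, β, hαβ⟩ := h
  obtain ⟨l, hl⟩ := scalar_of_eigen (α : (κ₁ → F) →ₗ[F] (κ₁ → F)) fun a ha => by
    have hinj : Function.Injective (D.ten a) := (injective_iff_map_eq_zero _).2 fun z hz =>
      D.ten_eq_zero_right ha hz
    have h3 : finrank F (LinearMap.range (D.ten a)) = 3 := by
      rw [LinearMap.finrank_range_of_inj hinj, Module.finrank_fintype_fun_eq_card, H.c₂]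
    obtain ⟨X, hX, hX0⟩ := Submodule.exists_mem_ne_zero_of_ne_bot (p := LinearMap.range (D.ten a) ⊓ S)
      fun h0 => by
        have h1 := Submodule.finrank_sup_add_finrank_inf_eq (LinearMap.range (D.ten a)) S
        rw [h0, finrank_bot, h3] at h1
        have h2 := Submodule.finrank_le (LinearMap.range (D.ten a) ⊔ S)
        rw [Module.finrank_fintype_fun_eq_card, H.six] at h2
        omega
    obtain ⟨⟨z, rfl⟩, hzS⟩ := hX
    have hz : z ≠ 0 := fun h0 => hX0 (by rw [h0, map_zero])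
    obtain ⟨v, hv⟩ := D.exists_dual_vec hz
    have h1 := congrArg (D.ctr v) (hfix _ hzS)
    rw [hαβ, D.ctr_ten, D.ctr_ten, hv, one_smul] at h1
    have hne : D.f₂ (β z) v ≠ 0 := fun h0 => ha (by rw [← h1, h0, zero_smul])
    exact ⟨(D.f₂ (β z) v)⁻¹, by
      conv_rhs => rw [← h1]
      rw [LinearEquiv.coe_coe, inv_smul_smul₀ hne]⟩
  refine ⟨l • β, fun u z => ?_⟩
  have hl' : α u = l • u := hl u
  rw [hαβ, hl', map_smul, LinearMap.smul_apply, LinearMap.smul_apply, map_smul]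

end CfsgLib.SUSix96.Tensor23
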