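import Cfsg.Agent.SUSix96.TensorFix

/-!
With only scalar coefficients the group preserves the decomposition of the six-dimensional unitary space.
-/

set_option autoImplicit false
set_option linter.unusedSectionVars false

namespace CfsgLib.SUSix96.Tensor23

open Module Matrix
open CfsgLib.FormTensor89
open CfsgLib.UnitTensor96 (exists_partner exists_iso_mem exists_iso_dual finrank_perp_ge eqv eqv_apply)
open CfsgLib.UnitCentres (add_right smul_right zero_left zero_right sub_left sub_right orth_comm norm_fixed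
  upair perp exists_upair_eq exists_traceZero Iso uT uT_mulVec uT_iso uT_mem_specialLinear)
open CfsgLib.TransvGL (transv transv_mulVec transv_mem_specialLinear)

variable {ι κ₁ κ₂ : Type} [Fintype ι] [DecidableEq ι] [Fintype κ₁] [DecidableEq κ₁] [Fintype κ₂]
  [DecidableEq κ₂] {F : Type*} [Field F] [Finite F] {τ : F ≃+* F}
  {D : TData ι F (κ₁ → F) (κ₂ → F)} {M : Subgroup (GL ι F)} (H : S23 D τ M) (hsc : Scal D M)
include H hsc

theorem ten_of_fix {g : GL ι F} (hg : g ∈ M) {k : κ₂ → F} (hk : k ≠ 0) (hkk : D.f₂ k k = 0)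
    (hst : ∀ u, (g : Matrix ι ι F) *ᵥ D.ten u k ∈ D.memb k) : Ten D g := by
  obtain ⟨k', m, h1, h2, h3, h4, h5, h6⟩ := exists_frame H hk hkk
  exact ten_of_fix_frame H hkk h1 h2 h3 h4 h5 h6 hsc hk hg hst

theorem ten_of_image {g : GL ι F} (hg : g ∈ M) {k k' : κ₂ → F} (hk : k ≠ 0) (hk' : k' ≠ 0)
    (hkk : D.f₂ k k = 0) (hkk' : D.f₂ k' k' = 0)
    (hst : ∀ u, (g : Matrix ι ι F) *ᵥ D.ten u k ∈ D.memb k') : Ten D g := by
  obtain ⟨e, he, b, hbk, -, hb⟩ := move₂ H hk' hk hkk' hkk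
  have hte : Ten D e := ⟨LinearEquiv.refl F _, b.toLinearMap, hb⟩
  have h := ten_of_fix H hsc (M.mul_mem he hg) hk hkk fun u => by
    obtain ⟨v, hv⟩ := D.mem_memb.1 (hst u)
    rw [mul_mulVec, ← hv, hb, hbk]
    exact D.ten_mem_memb v k
  have h2 := Ten.mul' H (Ten.inv' H hte) h
  rwa [inv_mul_cancel_left] at h2

/-- An element conjugating a root element to a factorwise element acts factorwise. -/
lemma conj_fix {h : GL ι F} (hh : h ∈ M) {k : κ₂ → F} (hk : k ≠ 0) (hkk : D.f₂ k k = 0) {x : GL ι F} {c : F}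
    (hc : c ≠ 0) (hxX : ∀ X, (x : Matrix ι ι F) *ᵥ X = X + D.R (c • LinearMap.id) k X)
    (hy : Ten D (h * x * h⁻¹)) : Ten D h := by
  set y := h * x * h⁻¹ with hydef
  have hyX : ∀ Y, (y : Matrix ι ι F) *ᵥ Y
      = Y + (h : Matrix ι ι F) *ᵥ D.ten (c • D.ctr k (((h⁻¹ : GL ι F) : Matrix ι ι F) *ᵥ Y)) k := fun Y => by
    rw [hydef, mul_mulVec, mul_mulVec, hxX, mulVec_add, mulVec_inv]
    simp
  set L := D.ctr k ∘ₗ ((h⁻¹ : GL ι F) : Matrix ι ι F).mulVecLin with hL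
  have hker : 4 ≤ finrank F (LinearMap.ker L) := by
    have h1 := LinearMap.finrank_range_add_finrank_ker L
    have h2 := Submodule.finrank_le (LinearMap.range L)
    rw [Module.finrank_fintype_fun_eq_card, H.c₁] at h2
    rw [Module.finrank_fintype_fun_eq_card, H.six] at h1
    omega
  obtain ⟨b, hb⟩ := Ten.of_fixed H hy hker fun X hX => by
    have h0 : D.ctr k (((h⁻¹ : GL ι F) : Matrix ι ι F) *ᵥ X) = 0 := hX
    rw [hyX, h0]; simp
  obtain ⟨u₀, v₀, hu₀, -, -, huv, -⟩ := exists_hyp₁ H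
  obtain ⟨k', hk'⟩ := D.exists_dual_vec hk
  have hk'k : D.f₂ k' k = 1 := by rw [H.u₂.herm, hk', map_one]
  obtain ⟨z, hz⟩ : ∃ z, b z - z ≠ 0 := by
    by_contra! h0
    have hfix : ∀ Y, (y : Matrix ι ι F) *ᵥ Y = Y := fun Y => by
      refine LinearMap.congr_fun (f := (y : Matrix ι ι F).mulVecLin) (g := LinearMap.id)
        (LinearMap.ext_on D.ten_span ?_) Y
      rintro _ ⟨u, z, rfl⟩
      rw [Matrix.mulVecLin_apply, hb, sub_eq_zero.1 (h0 z), LinearMap.id_apply]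
    have h1 := hfix ((h : Matrix ι ι F) *ᵥ D.ten u₀ k')
    rw [hyX, inv_mulVec, D.ctr_ten, hk'k, one_smul, add_eq_left] at h1
    have h2 := mulVec_injective h (a₁ := D.ten (c • u₀) k) (a₂ := 0) (by simpa using h1)
    exact hu₀ (smul_eq_zero.1 (D.ten_eq_zero hk h2) |>.resolve_left hc)
  set kk := b z - z with hkkdef
  have himg : ∀ u, ((h⁻¹ : GL ι F) : Matrix ι ι F) *ᵥ D.ten u kk ∈ D.memb k := fun u => by
    have h1 : D.ten u kk = (y : Matrix ι ι F) *ᵥ D.ten u z - D.ten u z := by rw [hb, hkkdef, map_sub]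
    rw [h1, hyX, add_sub_cancel_left, inv_mulVec]
    exact D.ten_mem_memb _ _
  have hkkk : D.f₂ kk kk = 0 := by
    obtain ⟨p, hp⟩ := D.mem_memb.1 (himg u₀)
    obtain ⟨p', hp'⟩ := D.mem_memb.1 (himg v₀)
    have h1 := H.iso _ (M.inv_mem hh) (D.ten u₀ kk) (D.ten v₀ kk)
    rw [← hp, ← hp', B_ten H, B_ten H, hkk, huv, zero_mul, mul_one] at h1
    exact h1.symm
  have h3 := Ten.inv' H (ten_of_image H hsc (M.inv_mem hh) hz hk hkkk hkk himg)
  rwa [inv_inv] at h3

/-- A root element keeping an image of a member forces acting factorwise. -/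
lemma ten_of_keep {g : GL ι F} (hg : g ∈ M) {w₀ k : κ₂ → F} (hw₀ : w₀ ≠ 0) (hww₀ : D.f₂ w₀ w₀ = 0)
    (hk : k ≠ 0) (hkk : D.f₂ k k = 0)
    (hkeep : ∀ v, D.ten (D.ctr k ((g : Matrix ι ι F) *ᵥ D.ten v w₀)) k ∈
      (D.memb w₀).map (g : Matrix ι ι F).mulVecLin) : Ten D g := by
  obtain ⟨ε, hε, hεσ⟩ := exists_traceZero H.u₁
  obtain ⟨x, hx, hxX⟩ := root H hεσ hkk
  set g' := g⁻¹ * x * g with hg'
  have hg'M : g' ∈ M := M.mul_mem (M.mul_mem (M.inv_mem hg) hx) hg
  have hfix : Ten D g' := ten_of_fix H hsc hg'M hw₀ hww₀ fun v => by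
    obtain ⟨X, hX, hXe⟩ := hkeep v
    rw [Matrix.mulVecLin_apply] at hXe
    rw [hg', mul_mulVec, mul_mulVec, hxX, mulVec_add, inv_mulVec, TData.R_apply, LinearMap.smul_apply,
      LinearMap.id_apply, map_smul, LinearMap.smul_apply, mulVec_smul, ← hXe, inv_mulVec]
    exact (D.memb w₀).add_mem (D.ten_mem_memb v w₀) ((D.memb w₀).smul_mem _ hX)
  have h1 := Ten.inv' H (conj_fix H hsc (M.inv_mem hg) hk hkk hε hxX (by rwa [inv_inv]))
  rwa [inv_inv] at h1

/-- A common vector that is isotropic on the first factor. -/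
lemma ten_of_meet_iso {g : GL ι F} (hg : g ∈ M) {w₀ k : κ₂ → F} (hw₀ : w₀ ≠ 0) (hww₀ : D.f₂ w₀ w₀ = 0)
    (hk : k ≠ 0) (hkk : D.f₂ k k = 0) {a₀ a : κ₁ → F} (ha : a ≠ 0) (haa : D.f₁ a a = 0)
    (hmeet : (g : Matrix ι ι F) *ᵥ D.ten a₀ w₀ = D.ten a k) : Ten D g := by
  refine ten_of_keep H hsc hg hw₀ hww₀ hk hkk fun v => ?_
  set p := D.ctr k ((g : Matrix ι ι F) *ᵥ D.ten v w₀)
  have hp : D.f₁ p a = 0 := by
    rw [← D.B_ctr, ← hmeet, H.iso g hg, B_ten H, hww₀, zero_mul]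
  obtain ⟨b, hbb, hab, hba⟩ := exists_partner H.u₁ ha haa
  have h := decomp₁ H haa hbb hab hba p
  rw [hp, zero_smul, add_zero] at h
  rw [h, map_smul, LinearMap.smul_apply, ← hmeet, ← mulVec_smul]
  exact ⟨_, (D.memb w₀).smul_mem _ (D.ten_mem_memb a₀ w₀), rfl⟩

/-- A vector in two members' images with respect to one element. -/
theorem ten_of_meet {g : GL ι F} (hg : g ∈ M) {w₀ k : κ₂ → F} (hw₀ : w₀ ≠ 0) (hww₀ : D.f₂ w₀ w₀ = 0)
    (hk : k ≠ 0) (hkk : D.f₂ k k = 0) {a₀ a : κ₁ → F} (ha₀ : a₀ ≠ 0)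
    (hmeet : (g : Matrix ι ι F) *ᵥ D.ten a₀ w₀ = D.ten a k) : Ten D g := by
  classical
  have ha : a ≠ 0 := fun h0 => ha₀ (D.ten_eq_zero hw₀ (mulVec_injective g (by simp [hmeet, h0])))
  by_cases haa : D.f₁ a a = 0
  · exact ten_of_meet_iso H hsc hg hw₀ hww₀ hk hkk ha haa hmeet
  by_cases haa₀ : D.f₁ a₀ a₀ = 0
  · have h := Ten.inv' H (ten_of_meet_iso H hsc (M.inv_mem hg) hk hkk hw₀ hww₀ ha₀ haa₀
      (a₀ := a) (by rw [← hmeet, inv_mulVec]))
    rwa [inv_inv] at h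
  by_contra hno
  -- orthogonal partners
  have orth : ∀ c : κ₁ → F, D.f₁ c c ≠ 0 → ∃ d, D.f₁ d c = 0 ∧ D.f₁ d d ≠ 0 ∧
      ∀ p, p = (D.f₁ p c / D.f₁ c c) • c + (D.f₁ p d / D.f₁ d d) • d := by
    intro c hc
    have hc0 : c ≠ 0 := fun h0 => hc (by rw [h0, zero_left H.u₁])
    obtain ⟨d, hd, hdd⟩ := CfsgLib.UnitTensor96.exists_aniso_perp H.u₁ (Submodule.span F {c})
      (fun x hx hxU => by
        obtain ⟨r, rfl⟩ := Submodule.mem_span_singleton.1 hx
        have h1 := hxU c (Submodule.mem_span_singleton_self c)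
        rw [H.u₁.smul_left, mul_eq_zero] at h1
        rw [h1.resolve_right hc, zero_smul])
      (by rw [finrank_span_singleton hc0, H.c₁]; norm_num)
    have hdc := hd c (Submodule.mem_span_singleton_self c)
    refine ⟨d, hdc, hdd, fun p => ?_⟩
    have hli : LinearIndependent F ![c, d] := LinearIndependent.pair_iff.2 fun x y hxy => by
      constructor
      · simpa [H.u₁.add_left, H.u₁.smul_left, hdc, hc, zero_left H.u₁] using congrArg (fun e => D.f₁ e c) hxy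
      · simpa [H.u₁.add_left, H.u₁.smul_left, orth_comm H.u₁ hdc, hdd, zero_left H.u₁] using
          congrArg (fun e => D.f₁ e d) hxy
    have hspan : Submodule.span F (Set.range ![c, d]) = ⊤ :=
      hli.span_eq_top_of_card_eq_finrank (by rw [Fintype.card_fin, Module.finrank_fintype_fun_eq_card, H.c₁])
    obtain ⟨r, hr⟩ := (Submodule.mem_span_range_iff_exists_fun F).1 (show p ∈ _ by rw [hspan]; trivial)
    rw [Fin.sum_univ_two] at hr
    simp only [Matrix.cons_val_zero, Matrix.cons_val_one] at hr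
    subst hr
    simp [H.u₁.add_left, H.u₁.smul_left, orth_comm H.u₁ hdc, hdc, hc, hdd]
  obtain ⟨b, hba, hbb, hdec⟩ := orth a haa
  obtain ⟨b₀, hba₀, hbb₀, hdec₀⟩ := orth a₀ haa₀
  have hbd : ∀ p, D.f₁ p a = 0 → p = (D.f₁ p b / D.f₁ b b) • b := fun p hp => by
    have h := hdec p; rwa [hp, zero_div, zero_smul, zero_add] at h
  have hbd₀ : ∀ p, D.f₁ p a₀ = 0 → p = (D.f₁ p b₀ / D.f₁ b₀ b₀) • b₀ := fun p hp => by
    have h := hdec₀ p; rwa [hp, zero_div, zero_smul, zero_add] at h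
  set c := D.ten a k with hc
  set u := D.ten b k with hu
  set t := (g : Matrix ι ι F) *ᵥ D.ten b₀ w₀ with ht
  have hct : D.B t c = 0 := by rw [ht, ← hmeet, H.iso g hg, B_ten H, hww₀, zero_mul]
  have hcc : D.B c c = 0 := by rw [hc, B_ten H, hkk, zero_mul]
  have huc : D.B u c = 0 := by rw [hu, hc, B_ten H, hkk, zero_mul]
  have huu : D.B u u = 0 := by rw [hu, B_ten H, hkk, zero_mul]
  have htt : D.B t t = 0 := by rw [ht, H.iso g hg, B_ten H, hww₀, zero_mul]
  set η := D.B t u with hη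
  have hη0 : η ≠ 0 := fun h0 => by
    -- the member is kept
    refine hno (ten_of_keep H hsc hg hw₀ hww₀ hk hkk fun v => ?_)
    have hv := hdec₀ v
    have h1 : D.ctr k t = 0 := by
      rw [hbd (D.ctr k t) (by rw [← D.B_ctr, hct]), ← D.B_ctr, ← hu, ← hη, h0, zero_div, zero_smul]
    rw [hv, map_add, LinearMap.add_apply, mulVec_add, map_add, map_smul, LinearMap.smul_apply, mulVec_smul,
      map_smul, hmeet, hc, D.ctr_ten, hkk, zero_smul, smul_zero, zero_add, map_smul, LinearMap.smul_apply,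
      mulVec_smul, map_smul, ← ht, h1, smul_zero, map_zero, LinearMap.zero_apply]
    exact zero_mem _
  obtain ⟨ε, hε, hεσ⟩ := exists_traceZero H.u₁
  set β := ε * η / D.f₁ b b with hβ
  set β' := ε * τ η / D.f₁ b₀ b₀ with hβ'
  -- elements fixing the common vector
  let Good : GL ι F → Prop := fun e => e ∈ M ∧ (e : Matrix ι ι F) *ᵥ c = c ∧
    ∀ v, D.B v u = 0 → D.B v t = 0 → ∃ r : F, (e : Matrix ι ι F) *ᵥ v = v + r • c
  have gmul : ∀ e e', Good e → Good e' → Good (e * e') := fun e e' h h' => by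
    refine ⟨M.mul_mem h.1 h'.1, by rw [mul_mulVec, h'.2.1, h.2.1], fun v hv hv' => ?_⟩
    obtain ⟨r, hr⟩ := h'.2.2 v hv hv'
    obtain ⟨r', hr'⟩ := h.2.2 v hv hv'
    exact ⟨r' + r, by rw [mul_mulVec, hr, mulVec_add, mulVec_smul, h.2.1, hr', add_smul, add_assoc]⟩
  have hx : ∀ s, τ s = s → ∃ e, Good e ∧ (e : Matrix ι ι F) *ᵥ u = u ∧
      (e : Matrix ι ι F) *ᵥ t = t + (s * β) • u := by
    intro s hs
    obtain ⟨e, he, heX⟩ := root H (c := ε * s) (by rw [map_mul, hs, ← add_mul, hεσ, zero_mul]) hkk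
    refine ⟨e, ⟨he, ?_, fun v hv _ => ⟨ε * s * (D.f₁ (D.ctr k v) a / D.f₁ a a), ?_⟩⟩, ?_, ?_⟩
    · rw [heX, hc]; simp [D.ctr_ten, hkk]
    · have h1 : D.ctr k v = (D.f₁ (D.ctr k v) a / D.f₁ a a) • a := by
        have h := hdec (D.ctr k v)
        rwa [show D.f₁ (D.ctr k v) b = 0 by rw [← D.B_ctr, ← hu, hv], zero_div, zero_smul, add_zero] at h
      rw [heX, TData.R_apply, LinearMap.smul_apply, LinearMap.id_apply]
      conv_lhs => rw [h1]
      rw [hc, smul_smul, map_smul, LinearMap.smul_apply]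
    · rw [heX, hu]; simp [D.ctr_ten, hkk]
    · rw [heX, TData.R_apply, LinearMap.smul_apply, LinearMap.id_apply,
        hbd (D.ctr k t) (by rw [← D.B_ctr, hct]), ← D.B_ctr, ← hu, ← hη, smul_smul, map_smul,
        LinearMap.smul_apply, hu]
      congr 2
      rw [hβ]; ring
  have hy : ∀ s, τ s = s → ∃ e, Good e ∧ (e : Matrix ι ι F) *ᵥ t = t ∧
      (e : Matrix ι ι F) *ᵥ u = u + (s * β') • t := by
    intro s hs
    obtain ⟨e, he, heX⟩ := root H (c := ε * s) (by rw [map_mul, hs, ← add_mul, hεσ, zero_mul]) hww₀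
    have hinv : ∀ v X, D.f₁ (D.ctr w₀ (((g⁻¹ : GL ι F) : Matrix ι ι F) *ᵥ X)) v
        = D.B X ((g : Matrix ι ι F) *ᵥ D.ten v w₀) := fun v X => by
      rw [← D.B_ctr, ← H.iso g hg, mulVec_inv]
    have heg : ∀ X, ((g * e * g⁻¹ : GL ι F) : Matrix ι ι F) *ᵥ X
        = X + (ε * s) • ((g : Matrix ι ι F) *ᵥ D.ten (D.ctr w₀ (((g⁻¹ : GL ι F) : Matrix ι ι F) *ᵥ X)) w₀) := by
      intro X
      rw [mul_mulVec, mul_mulVec, heX, mulVec_add, mulVec_inv]
      simp [mulVec_smul]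
    refine ⟨g * e * g⁻¹, ⟨M.mul_mem (M.mul_mem hg he) (M.inv_mem hg), ?_, fun v hv hv' => ?_⟩, ?_, ?_⟩
    · rw [heg, ← hmeet, inv_mulVec, D.ctr_ten, hww₀, zero_smul, map_zero, LinearMap.zero_apply, mulVec_zero,
        smul_zero, add_zero]
    · set p := D.ctr w₀ (((g⁻¹ : GL ι F) : Matrix ι ι F) *ᵥ v) with hp
      obtain ⟨r, hr⟩ : ∃ r : F, p = r • a₀ := by
        have h := hdec₀ p
        rw [show D.f₁ p b₀ = 0 by rw [hp, hinv, ← ht, hv'], zero_div, zero_smul, add_zero] at h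
        exact ⟨_, h⟩
      exact ⟨ε * s * r, by rw [heg, ← hp, hr, map_smul, LinearMap.smul_apply, mulVec_smul, hmeet, smul_smul]⟩
    · rw [heg, ht, inv_mulVec, D.ctr_ten, hww₀, zero_smul, map_zero, LinearMap.zero_apply, mulVec_zero,
        smul_zero, add_zero]
    · rw [heg, hbd₀ (D.ctr w₀ (((g⁻¹ : GL ι F) : Matrix ι ι F) *ᵥ u))
        (by rw [hinv, hmeet]; exact huc), hinv, ← ht, map_smul, LinearMap.smul_apply, mulVec_smul, ← ht,
        smul_smul, H.uB.herm u t, ← hη]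
      congr 2
      rw [hβ']; ring
  have hββ : β * β' ≠ 0 := by
    simp [hβ, hβ', hε, hη0, hbb, hbb₀, H.u₁.involutive]
  have hfx : τ (β * β') = β * β' := by
    have e1 : τ ε = -ε := by linear_combination hεσ
    simp only [hβ, hβ', map_mul, map_div₀, norm_fixed H.u₁, H.u₁.involutive, e1]
    ring
  have hw : ∀ s, τ s = s → s ≠ 0 → ∃ e, Good e ∧ (e : Matrix ι ι F) *ᵥ u = (-(1 / (s * β))) • t ∧
      (e : Matrix ι ι F) *ᵥ t = (s * β) • u := by
    intro s hs hs0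
    obtain ⟨x, hxg, hxu, hxt⟩ := hx s hs
    obtain ⟨y, hyg, hyt, hyu⟩ := hy (-(1 / (s * (β * β'))))
      (by rw [map_neg, map_div₀, map_one, map_mul, hs, hfx])
    refine ⟨x * y * x, gmul _ _ (gmul _ _ hxg hyg) hxg, ?_, ?_⟩
    · rw [mul_mulVec, mul_mulVec, hxu, hyu, mulVec_add, mulVec_smul, hxu, hxt]
      have hb1 : β ≠ 0 := (mul_ne_zero_iff.1 hββ).1
      have hb2 : β' ≠ 0 := (mul_ne_zero_iff.1 hββ).2
      match_scalars <;> field_simp <;> ring
    · rw [mul_mulVec, mul_mulVec, hxt, mulVec_add, mulVec_smul, hyt, hyu, mulVec_add, mulVec_smul, mulVec_add,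
        mulVec_smul, hxt, hxu]
      have hb1 : β ≠ 0 := (mul_ne_zero_iff.1 hββ).1
      have hb2 : β' ≠ 0 := (mul_ne_zero_iff.1 hββ).2
      match_scalars <;> field_simp <;> ring
  obtain ⟨s, hs, hs0, hs1⟩ : ∃ s : F, τ s = s ∧ s ≠ 0 ∧ s ≠ -1 := by
    obtain ⟨r, hr, hr0, hr1⟩ := H.three
    by_cases h : r = -1
    · exact ⟨1, map_one τ, one_ne_zero, fun h1 => hr1 (by rw [h, ← h1])⟩
    · exact ⟨r, hr, hr0, h⟩
  obtain ⟨ws, hwsg, hwsu, hwst⟩ := hw s hs hs0
  obtain ⟨w1, hw1g, hw1u, -⟩ := hw 1 (map_one τ) one_ne_zero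
  set d := ws * w1 with hd
  have hdg : Good d := gmul _ _ hwsg hw1g
  have hdu : (d : Matrix ι ι F) *ᵥ u = (-s) • u := by
    rw [hd, mul_mulVec, hw1u, mulVec_smul, hwst, smul_smul]
    have : β ≠ 0 := (mul_ne_zero_iff.1 hββ).1
    congr 1
    field_simp
  obtain ⟨P, hP⟩ := CharP.exists F
  haveI := hP
  haveI : Fact P.Prime := ⟨(CharP.char_is_prime_or_zero F P).resolve_right fun h0 => by
    subst h0
    haveI := CharP.charP_to_charZero F
    exact not_finite F⟩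
  have hpow : ∀ i : ℕ, ((d ^ i : GL ι F) : Matrix ι ι F) *ᵥ u = ((-s) ^ i) • u ∧
      ((d ^ i : GL ι F) : Matrix ι ι F) *ᵥ c = c ∧ ∀ v r, (d : Matrix ι ι F) *ᵥ v = v + r • c →
        ((d ^ i : GL ι F) : Matrix ι ι F) *ᵥ v = v + ((i : F) * r) • c := by
    intro i
    induction i with
    | zero => simp
    | succ i ih =>
      refine ⟨?_, ?_, fun v r hv => ?_⟩
      · rw [pow_succ', mul_mulVec, ih.1, mulVec_smul, hdu, smul_smul, ← pow_succ]
      · rw [pow_succ', mul_mulVec, ih.2.1, hdg.2.1]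
      · rw [pow_succ', mul_mulVec, ih.2.2 v r hv, mulVec_add, mulVec_smul, hv, hdg.2.1, Nat.cast_succ]
        module
  set E := d ^ P
  have hEM : E ∈ M := M.pow_mem hdg.1 P
  have hEt : Ten D E := ten_of_fix H hsc hEM hk hkk fun p => by
    have hp := hdec p
    rw [hp, map_add, LinearMap.add_apply, map_smul, map_smul, LinearMap.smul_apply, LinearMap.smul_apply,
      mulVec_add, mulVec_smul, mulVec_smul, ← hc, ← hu, (hpow P).2.1, (hpow P).1]
    exact Submodule.add_mem _ (Submodule.smul_mem _ _ (D.ten_mem_memb a k))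
      (Submodule.smul_mem _ _ (Submodule.smul_mem _ _ (D.ten_mem_memb b k)))
  set S := perp H.uB (({u, t} : Finset (ι → F)) : Set (ι → F)) with hS
  have hS4 : 4 ≤ finrank F S := by
    have h1 := finrank_perp_ge H.uB ({u, t} : Finset (ι → F))
    have := Finset.card_le_two (a := u) (b := t)
    rw [H.six] at h1
    rw [hS]; omega
  obtain ⟨e, he⟩ := Ten.of_fixed H hEt hS4 fun v hv => by
    obtain ⟨r, hr⟩ := hdg.2.2 v (hv u (by simp)) (hv t (by simp))
    rw [(hpow P).2.2 v r hr, CharP.cast_eq_zero, zero_mul, zero_smul, add_zero]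
  have hek : e k = k := by
    refine sub_eq_zero.1 (D.ten_eq_zero_right ha ?_)
    rw [map_sub, ← he, ← hc, (hpow P).2.1, sub_self]
  have h1 := (hpow P).1
  rw [hu, he, hek] at h1
  have hb0 : b ≠ 0 := fun h0 => hbb (by rw [h0, zero_left H.u₁])
  have hu0 : D.ten b k ≠ 0 := fun h0 => hb0 (D.ten_eq_zero hk h0)
  have h2 : ((-s) ^ P : F) = 1 := smul_left_injective F hu0 (by simpa using h1.symm)
  refine hs1 ?_
  have h3 : -s = 1 := frobenius_inj F P (by simpa [frobenius_def] using h2)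
  linear_combination -h3

/-- An image of a member that is not opposite to a member. -/
theorem ten_of_ker {g : GL ι F} (hg : g ∈ M) {w₀ k : κ₂ → F} (hw₀ : w₀ ≠ 0) (hww₀ : D.f₂ w₀ w₀ = 0)
    (hk : k ≠ 0) (hkk : D.f₂ k k = 0) {v : κ₁ → F} (hv : v ≠ 0)
    (hker : D.ctr k ((g : Matrix ι ι F) *ᵥ D.ten v w₀) = 0) : Ten D g := by
  obtain ⟨ε, hε, hεσ⟩ := exists_traceZero H.u₁
  obtain ⟨x, hx, hxX⟩ := root H hεσ hkk
  set g' := g⁻¹ * x * g with hg'
  have hg't : Ten D g' := ten_of_meet H hsc (M.mul_mem (M.mul_mem (M.inv_mem hg) hx) hg) hw₀ hww₀ hw₀ hww₀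
    (a := v) hv (by rw [hg', mul_mulVec, mul_mulVec, hxX, TData.R_apply, hker]; simp [inv_mulVec])
  have h1 := Ten.inv' H (conj_fix H hsc (M.inv_mem hg) hk hkk hε hxX (by rwa [inv_inv]))
  rwa [inv_inv] at h1

/-- A skew map of the plane has an eigenvector. -/
lemma exists_eigen (h2 : (2 : F) ≠ 0) (δ : (κ₁ → F) →ₗ[F] (κ₁ → F))
    (hδ : ∀ u v, D.f₁ (δ u) v + D.f₁ u (δ v) = 0) : ∃ u, u ≠ 0 ∧ ∃ l : F, δ u = l • u := by
  obtain ⟨a, b, ha, haa, hbb, hab, hba⟩ := exists_hyp₁ H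
  have hb : b ≠ 0 := fun h0 => one_ne_zero (α := F) (by rw [← hba, h0, zero_left H.u₁])
  set p := D.f₁ (δ a) b with hp
  set z := D.f₁ (δ a) a with hz
  set w := D.f₁ (δ b) b with hw
  set r := D.f₁ (δ b) a with hr
  have ea : δ a = p • a + z • b := decomp₁ H haa hbb hab hba (δ a)
  have eb : δ b = w • a + r • b := decomp₁ H haa hbb hab hba (δ b)
  by_cases hw0 : w = 0
  · exact ⟨b, hb, r, by rw [eb, hw0, zero_smul, zero_add]⟩
  have hzt : z + τ z = 0 := by rw [hz, ← H.u₁.herm a (δ a)]; exact hδ a a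
  have hwt : w + τ w = 0 := by rw [hw, ← H.u₁.herm b (δ b)]; exact hδ b b
  have hpr : p + τ r = 0 := by rw [hp, hr, ← H.u₁.herm a (δ b)]; exact hδ a b
  obtain ⟨y, hy⟩ := H.sqf ((p - r) * (p - r) + 4 * w * z) (by
    have e1 : τ z = -z := by linear_combination hzt
    have e2 : τ w = -w := by linear_combination hwt
    have e3 : τ r = -p := by linear_combination hpr
    have e4 : τ p = -r := by
      have h := congrArg τ hpr
      rw [map_add, H.u₁.involutive, map_zero] at h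
      linear_combination h
    simp only [map_add, map_mul, map_sub, map_ofNat, e1, e2, e3, e4]
    ring)
  set μ := (-(p - r) + y) / (2 * w) with hμ
  have hμq : z + μ * r = μ * (p + μ * w) := by
    rw [hμ]; field_simp; linear_combination -hy
  refine ⟨a + μ • b, fun h0 => ?_, p + μ * w, ?_⟩
  · have := congrArg (fun x => D.f₁ x b) h0
    simp [H.u₁.add_left, H.u₁.smul_left, hab, hbb, zero_left H.u₁] at this
  · rw [map_add, map_smul, ea, eb]
    match_scalars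
    · ring
    · linear_combination hμq

set_option maxHeartbeats 1000000 in
/-- No image of a member is opposite to all members. -/
theorem ten_of_mem {g : GL ι F} (hg : g ∈ M) : Ten D g := by
  classical
  by_contra hno
  obtain ⟨w₀, hw₀, hww₀, -⟩ := exists_iso_orth H (0 : κ₂ → F)
  set T : (κ₁ → F) →ₗ[F] (ι → F) := (g : Matrix ι ι F).mulVecLin ∘ₗ D.ten.flip w₀ with hT
  have hTv : ∀ v, T v = (g : Matrix ι ι F) *ᵥ D.ten v w₀ := fun v => rfl
  have hTI : ∀ v v', D.B (T v) (T v') = 0 := fun v v' => by rw [hTv, hTv, H.iso g hg, B_ten H, hww₀, zero_mul]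
  have hopp : ∀ k, k ≠ 0 → D.f₂ k k = 0 → ∀ v, D.ctr k (T v) = 0 → v = 0 := fun k hk hkk v h0 =>
    by_contra fun hv => hno (ten_of_ker H hsc hg hw₀ hww₀ hk hkk hv h0)
  have hTinj : Function.Injective T := fun v v' h => D.ten_left_injective hw₀ (mulVec_injective g h)
  have nopure : ∀ v, v ≠ 0 → ∀ a z, T v ≠ D.ten a z := fun v hv a z h => by
    obtain ⟨k, hk, hkk, hzk⟩ := exists_iso_orth H z
    exact hv (hopp k hk hkk v (by rw [h, D.ctr_ten, hzk, zero_smul]))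
  have stab : ∀ e ∈ M, Ten D e → ∀ v, v ≠ 0 → ∀ l : F, (e : Matrix ι ι F) *ᵥ T v = l • T v →
      ∀ u, ∃ u', (e : Matrix ι ι F) *ᵥ T u = T u' := by
    intro e he het v hv l hl u
    set g' := g⁻¹ * e * g with hg'
    have h1 : (g' : Matrix ι ι F) *ᵥ D.ten v w₀ = D.ten (l • v) w₀ := by
      rw [hg', mul_mulVec, mul_mulVec, ← hTv, hl, mulVec_smul, hTv, inv_mulVec, map_smul, LinearMap.smul_apply]
    obtain ⟨α, β, hαβ⟩ := ten_of_meet H hsc (M.mul_mem (M.mul_mem (M.inv_mem hg) he) hg) hw₀ hww₀ hw₀ hww₀ hv h1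
    have hαv : α v ≠ 0 := fun h0 => hv (α.injective (h0.trans (map_zero α).symm))
    rw [hαβ] at h1
    have hmem : D.ten (α v) (β w₀) ∈ D.memb w₀ := h1 ▸ D.ten_mem_memb _ _
    obtain ⟨μ, hμ⟩ : ∃ μ : F, β w₀ = μ • w₀ := by
      by_contra! hne
      have hni : β w₀ ∉ Submodule.span F {w₀} := fun hm => by
        obtain ⟨μ, hμ⟩ := Submodule.mem_span_singleton.1 hm
        exact hne μ hμ.symm
      obtain ⟨d, hd, hdd⟩ := CfsgLib.UnitCentres.exists_orth_sep H.u₂ hni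
      obtain ⟨p, hp⟩ := D.mem_memb.1 hmem
      have h2 := congrArg (D.ctr d) hp
      rw [D.ctr_ten, D.ctr_ten, hd w₀ (Submodule.mem_span_singleton_self w₀), zero_smul] at h2
      exact hαv ((smul_eq_zero.1 h2.symm).resolve_left hdd)
    refine ⟨μ • α u, ?_⟩
    rw [hTv, hTv, map_smul, LinearMap.smul_apply, ← map_smul, ← hμ, ← hαβ]
    simp only [hg', mul_mulVec, mulVec_inv]
  obtain ⟨a₁, b₁, ha₁, haa₁, hbb₁, hab₁, hba₁⟩ := exists_hyp₁ H
  have ha₁T : T a₁ ≠ 0 := fun h0 => ha₁ (hTinj (h0.trans (map_zero T).symm))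
  -- the rows
  obtain ⟨cut, hcut⟩ : ∃ cut : (κ₁ → F) → (ι → F) → (κ₂ → F),
      ∀ d X y, D.f₂ (cut d X) y = D.f₁ (D.ctr y X) d :=
    ⟨fun d X => D.cut (upair H.u₁ d) X, fun d X y => D.cut_ctr _ _ _⟩
  have rows : ∀ a b, D.f₁ a a = 0 → D.f₁ b b = 0 → D.f₁ a b = 1 → D.f₁ b a = 1 → ∀ X,
      X = D.ten a (cut b X) + D.ten b (cut a X) := by
    intro a b haa hbb hab hba X
    refine sub_eq_zero.1 (D.ctr_ext _ fun y => ?_)
    rw [map_sub, map_add, D.ctr_ten, D.ctr_ten, hcut, hcut, ← decomp₁ H haa hbb hab hba, sub_self]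
  rcases eq_or_ne (2 : F) 0 with h2 | h2
  · -- characteristic two
    have hfix : ∀ x : F, x + τ x = 0 → τ x = x := fun x hx => by linear_combination hx - x * h2
    have hsigma : ∀ a b, D.f₁ a a = 0 → D.f₁ b b = 0 → D.f₁ a b = 1 → D.f₁ b a = 1 →
        τ (D.f₂ (cut b (T a₁)) (cut a (T a₁))) = D.f₂ (cut b (T a₁)) (cut a (T a₁)) := by
      intro a b haa hbb hab hba
      refine hfix _ ?_
      have h := hTI a₁ a₁
      rw [rows a b haa hbb hab hba (T a₁)] at h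
      simp only [H.uB.add_left, add_right H.uB, B_ten H, haa, hbb, hab, hba, mul_zero, mul_one, zero_add,
        add_zero] at h
      rwa [H.u₂.herm (cut a (T a₁))] at h
    obtain ⟨a, b, haa, hbb, hab, hba, hss⟩ : ∃ a b, D.f₁ a a = 0 ∧ D.f₁ b b = 0 ∧ D.f₁ a b = 1 ∧
        D.f₁ b a = 1 ∧ D.f₂ (cut a (T a₁)) (cut a (T a₁)) = 0 := by
      by_cases hs : D.f₂ (cut a₁ (T a₁)) (cut a₁ (T a₁)) = 0
      · exact ⟨a₁, b₁, haa₁, hbb₁, hab₁, hba₁, hs⟩
      by_cases hr : D.f₂ (cut b₁ (T a₁)) (cut b₁ (T a₁)) = 0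
      · exact ⟨b₁, a₁, hbb₁, haa₁, hba₁, hab₁, hr⟩
      set s := cut a₁ (T a₁) with hsdef
      set r := cut b₁ (T a₁) with hrdef
      obtain ⟨μ, hμ⟩ := H.sqf (D.f₂ s s / D.f₂ r r) (by rw [map_div₀, norm_fixed H.u₂, norm_fixed H.u₂])
      have hμτ : τ μ = μ := by
        have h1 : τ μ * τ μ = μ * μ := by rw [← map_mul, hμ, map_div₀, norm_fixed H.u₂, norm_fixed H.u₂]
        have h3 : (τ μ - μ) * (τ μ - μ) = 0 := by linear_combination h1 - (τ μ * μ - μ * μ) * h2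
        exact sub_eq_zero.1 (mul_self_eq_zero.1 h3)
      refine ⟨a₁ + μ • b₁, b₁, ?_, hbb₁, ?_, ?_, ?_⟩
      · simp only [H.u₁.add_left, H.u₁.smul_left, add_right H.u₁, smul_right H.u₁, haa₁, hbb₁, hab₁, hba₁, hμτ]
        linear_combination μ * h2
      · rw [H.u₁.add_left, H.u₁.smul_left, hab₁, hbb₁, mul_zero, add_zero]
      · rw [add_right H.u₁, smul_right H.u₁, hba₁, hbb₁, mul_zero, add_zero]
      · have e1 : cut (a₁ + μ • b₁) (T a₁) = s + μ • r := by
          refine sub_eq_zero.1 (D.f₂_nondeg _ fun y => ?_)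
          rw [sub_left H.u₂, hcut, add_right H.u₁, smul_right H.u₁, H.u₂.add_left, H.u₂.smul_left, hμτ,
            hsdef, hrdef, hcut, hcut, sub_self]
        have e2 := hsigma a₁ b₁ haa₁ hbb₁ hab₁ hba₁
        rw [← hsdef, ← hrdef] at e2
        rw [e1]
        simp only [H.u₂.add_left, H.u₂.smul_left, add_right H.u₂, smul_right H.u₂, hμτ, H.u₂.herm s r, e2]
        field_simp at hμ
        linear_combination hμ + (μ * D.f₂ r s + D.f₂ s s) * h2
    set s := cut a (T a₁) with hsdef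
    set r := cut b (T a₁) with hrdef
    have ht : T a₁ = D.ten a r + D.ten b s := rows a b haa hbb hab hba _
    have hs0 : s ≠ 0 := fun h0 => nopure a₁ ha₁ a r (by rw [ht, h0, map_zero, add_zero])
    set γ := D.f₂ r s with hγdef
    have hγτ : τ γ = γ := hsigma a b haa hbb hab hba
    have hctrs : D.ctr s (T a₁) = γ • a := by
      rw [ht, map_add, D.ctr_ten, D.ctr_ten, hss, zero_smul, add_zero]
    have hγ0 : γ ≠ 0 := fun h0 => ha₁ (hopp s hs0 hss a₁ (by rw [hctrs, h0, zero_smul]))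
    obtain ⟨κ, hκ, hκ0, hκ1⟩ := H.three
    -- the elements fixing the chosen vector
    have helem : ∀ x : F, τ x = x → ∃ e ∈ M, (∀ u, ∃ u', (e : Matrix ι ι F) *ᵥ T u = T u') ∧
        ∀ u z, (e : Matrix ι ι F) *ᵥ D.ten u z = D.ten (u + (x * D.f₁ u a) • a) (z + (x / γ * D.f₂ z s) • s) := by
      intro x hx
      have hx1 : x + τ x = 0 := by rw [hx]; linear_combination x * h2
      have hx2 : x / γ + τ (x / γ) = 0 := by rw [map_div₀, hx, hγτ]; linear_combination (x / γ) * h2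
      obtain ⟨e₁, he₁, heX₁⟩ := H.l₁ _ (uT_iso H.u₁ haa hx1) (uT_mem_specialLinear H.u₁ haa x)
      obtain ⟨e₂, he₂, heX₂⟩ := H.l₂ _ (uT_iso H.u₂ hss hx2) (uT_mem_specialLinear H.u₂ hss (x / γ))
      have hX : ∀ u z, ((e₁ * e₂ : GL ι F) : Matrix ι ι F) *ᵥ D.ten u z
          = D.ten (u + (x * D.f₁ u a) • a) (z + (x / γ * D.f₂ z s) • s) := fun u z => by
        rw [mul_mulVec, heX₂, heX₁, uT_mulVec, uT_mulVec]
      refine ⟨e₁ * e₂, M.mul_mem he₁ he₂, ?_, hX⟩
      refine stab _ (M.mul_mem he₁ he₂) (Ten.mul' H ⟨eqv _, LinearMap.id, heX₁⟩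
        ⟨LinearEquiv.refl F _, Matrix.mulVecLin _, heX₂⟩) a₁ ha₁ 1 ?_
      rw [one_smul, ht, mulVec_add, hX, hX, haa, hba, ← hγdef, hss, div_mul_cancel₀ _ hγ0]
      simp only [mul_zero, mul_one, zero_smul, add_zero, map_add, map_smul, LinearMap.add_apply,
        LinearMap.smul_apply]
      linear_combination (norm := module) (congrArg (fun c : F => (c * x) • D.ten a s) h2)
    obtain ⟨e, he, heT, heX⟩ := helem 1 (map_one τ)
    obtain ⟨e', he', heT', heX'⟩ := helem κ hκ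
    have hΦ : ∀ X, ((e' : Matrix ι ι F) *ᵥ X - X) - κ • ((e : Matrix ι ι F) *ᵥ X - X)
        = ((κ * κ - κ) / γ * D.B X (D.ten a s)) • D.ten a s := fun X => by
      refine (LinearMap.congr_fun (f := ((e' : Matrix ι ι F).mulVecLin - LinearMap.id)
          - κ • ((e : Matrix ι ι F).mulVecLin - LinearMap.id))
        (g := ((κ * κ - κ) / γ) • (upair H.uB (D.ten a s)).smulRight (D.ten a s))
        (LinearMap.ext_on D.ten_span ?_) X).trans ?_
      rotate_left
      · simp [smul_smul]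
      rintro _ ⟨u, z, rfl⟩
      simp only [LinearMap.sub_apply, LinearMap.smul_apply, LinearMap.id_apply, Matrix.mulVecLin_apply,
        LinearMap.smulRight_apply, CfsgLib.UnitCentres.upair_apply, heX, heX', B_ten H, map_add, map_smul,
        LinearMap.add_apply, smul_smul]
      module
    have hκκ : (κ * κ - κ) / γ ≠ 0 := div_ne_zero (by
      rw [show κ * κ - κ = κ * (κ - 1) by ring]; exact mul_ne_zero hκ0 (sub_ne_zero.2 hκ1)) hγ0
    have hperp : ∀ u, D.f₁ (D.ctr s (T u)) a = 0 := fun u => by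
      by_contra hne
      have hne' : (κ * κ - κ) / γ * D.B (T u) (D.ten a s) ≠ 0 := mul_ne_zero hκκ (by rwa [D.B_ctr])
      obtain ⟨u₁, hu₁⟩ := heT u
      obtain ⟨u₂, hu₂⟩ := heT' u
      have h1 : T ((u₂ - u) - κ • (u₁ - u)) = ((κ * κ - κ) / γ * D.B (T u) (D.ten a s)) • D.ten a s := by
        rw [← hΦ, hu₁, hu₂]; simp
      refine nopure ((u₂ - u) - κ • (u₁ - u)) (fun h0 => ?_) (((κ * κ - κ) / γ * D.B (T u) (D.ten a s)) • a) s ?_
      · rw [h0, map_zero] at h1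
        have h4 := (smul_eq_zero.1 h1.symm).resolve_left hne'
        exact hs0 (D.ten_eq_zero_right (fun ha0 => one_ne_zero (α := F) (by rw [← hab, ha0, zero_left H.u₁])) h4)
      · rw [h1, map_smul, LinearMap.smul_apply]
    have hall : ∀ u, ∃ l : F, u = l • a₁ := fun u => by
      have h1 := decomp₁ H haa hbb hab hba (D.ctr s (T u))
      rw [hperp, zero_smul, add_zero] at h1
      refine ⟨D.f₁ (D.ctr s (T u)) b / γ, sub_eq_zero.1 (hopp s hs0 hss _ ?_)⟩
      rw [map_sub, map_smul, map_sub, map_smul, hctrs, smul_smul, div_mul_cancel₀ _ hγ0, ← h1, sub_self]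
    obtain ⟨l, hl⟩ := hall b₁
    have h1 := hab₁
    rw [hl, smul_right H.u₁, haa₁, mul_zero] at h1
    exact zero_ne_one h1
  · -- odd characteristic
    set t := T a₁ with htdef
    obtain ⟨m, hmP, hm0⟩ := Submodule.exists_mem_ne_zero_of_ne_bot
      (p := perp H.u₂ (({cut a₁ t, cut b₁ t} : Finset (κ₂ → F)) : Set (κ₂ → F))) fun h0 => by
        have h1 := finrank_perp_ge H.u₂ ({cut a₁ t, cut b₁ t} : Finset (κ₂ → F))
        rw [h0, finrank_bot, H.c₂] at h1
        have := Finset.card_le_two (a := cut a₁ t) (b := cut b₁ t)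
        omega
    have hmt : D.ctr m t = 0 := by
      have e1 : D.f₁ (D.ctr m t) a₁ = 0 := by rw [← hcut]; exact orth_comm H.u₂ (hmP _ (by simp))
      have e2 : D.f₁ (D.ctr m t) b₁ = 0 := by rw [← hcut]; exact orth_comm H.u₂ (hmP _ (by simp))
      rw [decomp₁ H haa₁ hbb₁ hab₁ hba₁ (D.ctr m t), e1, e2, zero_smul, zero_smul, add_zero]
    have hmm : D.f₂ m m ≠ 0 := fun h0 => ha₁ (hopp m hm0 h0 a₁ hmt)
    -- minus the reflection
    let χ : Module.Dual F (κ₂ → F) := upair H.u₂ m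
    obtain ⟨bM, hbM⟩ : ∃ bM : Matrix κ₂ κ₂ F, ∀ X, bM *ᵥ X = (2 * D.f₂ X m / D.f₂ m m) • m - X :=
      ⟨LinearMap.toMatrix' (((2 / D.f₂ m m) • χ).smulRight m - LinearMap.id), fun X => by
        rw [← Matrix.toLin'_apply]
        simp [χ, mul_div_right_comm]⟩
    have hbb' : bM * bM = 1 := Matrix.ext_iff_mulVec.2 fun X => by
      rw [← mulVec_mulVec, hbM, hbM, one_mulVec, sub_left H.u₂, H.u₂.smul_left, div_mul_cancel₀ _ hmm]
      match_scalars <;> field_simp <;> ring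
    let b : GL κ₂ F := ⟨bM, bM, hbb', hbb'⟩
    have hbX : ∀ X, (b : Matrix κ₂ κ₂ F) *ᵥ X = (2 * D.f₂ X m / D.f₂ m m) • m - X := hbM
    have hbiso : Iso D.f₂ b := fun X Y => by
      simp only [hbX, sub_left H.u₂, sub_right H.u₂, H.u₂.smul_left, smul_right H.u₂, map_div₀, map_mul,
        map_ofNat, norm_fixed H.u₂, ← H.u₂.herm m Y]
      field_simp
      ring
    have hbdet : b ∈ Cfsg.Geo.specialLinear κ₂ F := by
      rw [CfsgLib.PseudoRefl.mem_specialLinear_iff]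
      have hχ : χ ((D.f₂ m m)⁻¹ • m) = 1 := by simp [χ, hmm]
      have hneg : (b : Matrix κ₂ κ₂ F) = -((CfsgLib.PseudoRefl.refl χ hχ (-1) : GL κ₂ F) : Matrix κ₂ κ₂ F) :=
        Matrix.ext_iff_mulVec.2 fun X => by
          rw [hbX, neg_mulVec, CfsgLib.PseudoRefl.refl_mulVec]
          simp only [χ, CfsgLib.UnitCentres.upair_apply, Units.val_neg, Units.val_one]
          match_scalars <;> field_simp <;> ring
      rw [hneg, Matrix.det_neg, CfsgLib.PseudoRefl.det_refl, H.c₂]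
      norm_num
    obtain ⟨e, he, heX⟩ := H.l₂ b hbiso hbdet
    have hall : ∀ X, (e : Matrix ι ι F) *ᵥ X + X = D.ten ((2 / D.f₂ m m) • D.ctr m X) m := fun X => by
      refine LinearMap.congr_fun (f := (e : Matrix ι ι F).mulVecLin + LinearMap.id)
        (g := D.ten.flip m ∘ₗ ((2 / D.f₂ m m) • D.ctr m)) (LinearMap.ext_on D.ten_span ?_) X
      rintro _ ⟨u, z, rfl⟩
      simp only [LinearMap.add_apply, LinearMap.id_apply, Matrix.mulVecLin_apply, heX, hbX, map_sub, map_smul,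
        LinearMap.comp_apply, LinearMap.smul_apply, LinearMap.flip_apply, D.ctr_ten, smul_smul]
      match_scalars <;> field_simp <;> ring
    have hmem : ∀ u, D.ctr m (T u) = 0 := fun u => by
      obtain ⟨u', hu'⟩ := stab e he ⟨LinearEquiv.refl F _, Matrix.mulVecLin _, heX⟩ a₁ ha₁ (-1)
        (by
          have h1 := hall t
          rw [hmt, smul_zero, map_zero, LinearMap.zero_apply] at h1
          rw [neg_one_smul]
          exact eq_neg_of_add_eq_zero_left h1) u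
      by_contra hne
      have h1 : T (u' + u) = D.ten ((2 / D.f₂ m m) • D.ctr m (T u)) m := by rw [map_add, ← hu', hall]
      refine nopure _ (fun h0 => ?_) _ _ h1
      rw [h0, map_zero] at h1
      exact hne ((smul_eq_zero.1 (D.ten_eq_zero hm0 h1.symm)).resolve_left (div_ne_zero h2 hmm))
    obtain ⟨k, hk, hkk, hmk⟩ := exists_iso_orth H m
    have hkm : k ∉ Submodule.span F {m} := fun h => by
      obtain ⟨r, rfl⟩ := Submodule.mem_span_singleton.1 h
      rw [smul_right H.u₂, mul_eq_zero, map_eq_zero] at hmk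
      exact hk (by rw [hmk.resolve_right hmm, zero_smul])
    obtain ⟨k', hk'k', hkk', hk'm⟩ := exists_iso_dual H.u₂ hkm hkk fun u hu => by
      obtain ⟨r, rfl⟩ := Submodule.mem_span_singleton.1 hu
      rw [H.u₂.smul_left, hmk, mul_zero]
    have hk'k : D.f₂ k' k = 1 := by rw [H.u₂.herm, hkk', map_one]
    have hk'm : D.f₂ k' m = 0 := orth_comm H.u₂ (hk'm m (Submodule.mem_span_singleton_self m))
    have hinj : Function.Injective (D.ctr k ∘ₗ T) :=
      (injective_iff_map_eq_zero _).2 fun v hv => hopp k hk hkk v hv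
    let L := LinearEquiv.ofInjectiveEndo (D.ctr k ∘ₗ T) hinj
    let δ : (κ₁ → F) →ₗ[F] (κ₁ → F) := (D.ctr k' ∘ₗ T) ∘ₗ L.symm.toLinearMap
    have hX : ∀ v, T v = D.ten (L v) k' + D.ten (δ (L v)) k := fun v => by
      have e1 : δ (L v) = D.ctr k' (T v) := by simp [δ]
      have e2 : L v = D.ctr k (T v) := rfl
      refine sub_eq_zero.1 (D.ctr_ext _ fun y => ?_)
      rw [decomp H hkk hk'k' hkk' hk'k (orth_comm H.u₂ hmk) hk'm hmm y, D.ctr_add, D.ctr_add, ctr_smul' H,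
        ctr_smul' H, ctr_smul' H, e1, e2]
      simp [map_sub, hmem, D.ctr_ten, hkk, hkk', hk'k, hk'k', hk'm, orth_comm H.u₂ hmk]
    obtain ⟨u, hu, l, hl⟩ := exists_eigen H hsc h2 δ fun p q => by
      obtain ⟨p, rfl⟩ := L.surjective p
      obtain ⟨q, rfl⟩ := L.surjective q
      have h := hTI p q
      rw [hX, hX] at h
      simp only [H.uB.add_left, add_right H.uB, B_ten H, hkk, hk'k', hkk', hk'k, zero_mul, one_mul, zero_add,
        add_zero] at h
      linear_combination h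
    obtain ⟨v, rfl⟩ := L.surjective u
    refine nopure v (fun h0 => hu (by rw [h0, map_zero])) (L v) (k' + l • k) ?_
    rw [hX, hl, map_smul, LinearMap.smul_apply, map_add, map_smul]

end CfsgLib.SUSix96.Tensor23
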