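import Cfsg.Agent.SUSix96.TensorBasic
import Cfsg.Agent.Classical.PseudoRefl

/-!
With only scalar coefficients an element fixing a member of the tensor decomposition acts factorwise.
-/

set_option autoImplicit false
set_option linter.unusedSectionVars false

namespace CfsgLib.SUSix96.Tensor23

open Module Matrix
open CfsgLib.FormTensor89
open CfsgLib.UnitTensor96 (exists_partner exists_iso_mem eqv eqv_apply)
open CfsgLib.UnitCentres (add_right smul_right zero_left zero_right sub_left sub_right orth_comm norm_fixed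
  upair perp exists_trace exists_traceZero Iso)
open CfsgLib.TransvGL (transv transv_mulVec transv_mem_specialLinear)

variable {ι κ₁ κ₂ : Type} [Fintype ι] [DecidableEq ι] [Fintype κ₁] [DecidableEq κ₁] [Fintype κ₂]
  [DecidableEq κ₂] {F : Type*} [Field F] [Finite F] {τ : F ≃+* F}
  {D : TData ι F (κ₁ → F) (κ₂ → F)} {M : Subgroup (GL ι F)} (H : S23 D τ M)
  {k k' m : κ₂ → F} (hkk : D.f₂ k k = 0) (hk'k' : D.f₂ k' k' = 0) (hkk' : D.f₂ k k' = 1)
  (hk'k : D.f₂ k' k = 1) (hkm : D.f₂ k m = 0) (hk'm : D.f₂ k' m = 0) (hmm : D.f₂ m m ≠ 0)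
include H hkk hk'k' hkk' hk'k hkm hk'm hmm

/-- Elements of the radical of the stabiliser of an isotropic line of the second factor. -/
lemma heis (a : F) : ∃ c : F, ∃ n ∈ M, (∀ u, (n : Matrix ι ι F) *ᵥ D.ten u k = D.ten u k) ∧
    (∀ u, (n : Matrix ι ι F) *ᵥ D.ten u m = D.ten u m + (a * D.f₂ m m) • D.ten u k) ∧
    ∀ u, (n : Matrix ι ι F) *ᵥ D.ten u k' = D.ten u k' - τ a • D.ten u m + c • D.ten u k := by
  obtain ⟨c₀, hc⟩ := exists_trace H.u₁ (r := -(a * τ a * D.f₂ m m))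
    (by rw [map_neg, map_mul, map_mul, H.u₁.involutive, norm_fixed H.u₂]; ring)
  have hmk := orth_comm H.u₂ hkm
  have hmk' := orth_comm H.u₂ hk'm
  have h2 : (upair H.u₂ k : Module.Dual F (κ₂ → F)) ((-τ a) • m) = 0 := by
    rw [map_smul, CfsgLib.UnitCentres.upair_apply, hmk, smul_zero]
  -- the second transvection absorbs the cross term
  set cc := c₀ + a * τ a * D.f₂ m m with hcc
  have h1 : (a • upair H.u₂ m + cc • upair H.u₂ k : Module.Dual F (κ₂ → F)) k = 0 := by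
    simp [hkm, hkk]
  set b := transv h1 * transv h2 with hb
  have hbX : ∀ X, (b : Matrix κ₂ κ₂ F) *ᵥ X
      = X + (-(τ a) * D.f₂ X k) • m + (a * D.f₂ X m + c₀ * D.f₂ X k) • k := fun X => by
    rw [hb, mul_mulVec, transv_mulVec, transv_mulVec]
    simp only [LinearMap.add_apply, LinearMap.smul_apply, CfsgLib.UnitCentres.upair_apply, H.u₂.add_left,
      H.u₂.smul_left, smul_eq_mul, hmk, hcc]
    match_scalars <;> ring
  have hiso : Iso D.f₂ b := fun X Y => by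
    simp only [hbX, H.u₂.add_left, H.u₂.smul_left, add_right H.u₂, smul_right H.u₂, hkk, hkm, hmk, map_add,
      map_mul, map_neg, H.u₂.involutive, ← H.u₂.herm k Y, ← H.u₂.herm m Y]
    linear_combination (D.f₂ X k * D.f₂ k Y) * hc
  obtain ⟨n, hn, hnX⟩ := H.l₂ b hiso
    (mul_mem (transv_mem_specialLinear h1) (transv_mem_specialLinear h2))
  refine ⟨c₀, n, hn, fun u => ?_, fun u => ?_, fun u => ?_⟩
  · rw [hnX, hbX, hkk, hkm]; simp
  · rw [hnX, hbX, hmk]; simp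
  · rw [hnX, hbX, hk'k, hk'm]; simp [sub_eq_add_neg]

variable (hsc : Scal D M) (hk : k ≠ 0)
include hsc hk

/-- An element of the radical has scalar coefficients. -/
lemma coef {z : GL ι F} (hz : z ∈ M) (hzk : ∀ u, (z : Matrix ι ι F) *ᵥ D.ten u k = D.ten u k)
    (A : (κ₁ → F) →ₗ[F] (κ₁ → F))
    (hzm : ∀ u, (z : Matrix ι ι F) *ᵥ D.ten u m = D.ten u m + D.ten (A u) k) :
    ∃ l d : F, (∀ u, A u = (l * D.f₂ m m) • u) ∧
      ∀ u, (z : Matrix ι ι F) *ᵥ D.ten u k' = D.ten u k' - τ l • D.ten u m + d • D.ten u k := by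
  have hmk := orth_comm H.u₂ hkm
  have hmk' := orth_comm H.u₂ hk'm
  let Z : (ι → F) →ₗ[F] (ι → F) := (z : Matrix ι ι F).mulVecLin
  let C : (κ₁ → F) →ₗ[F] (κ₁ → F) := (D.f₂ m m)⁻¹ • (D.ctr m ∘ₗ Z ∘ₗ D.ten.flip k')
  let E : (κ₁ → F) →ₗ[F] (κ₁ → F) := D.ctr k' ∘ₗ Z ∘ₗ D.ten.flip k'
  have hzk' : ∀ u, (z : Matrix ι ι F) *ᵥ D.ten u k' = D.ten u k' + D.ten (C u) m + D.ten (E u) k := by
    intro u
    have h1 : ∀ v, D.ctr k ((z : Matrix ι ι F) *ᵥ D.ten v k') = v := fun v => D.f₁_ext fun w => by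
      rw [← D.B_ctr, ← hzk, H.iso z hz, B_ten H, hk'k, one_mul]
    set X := (z : Matrix ι ι F) *ᵥ D.ten u k' with hX
    refine sub_eq_zero.1 (D.ctr_ext _ fun y => ?_)
    have hy := decomp H hkk hk'k' hkk' hk'k hkm hk'm hmm y
    have e1 : D.ctr k X = u := h1 u
    have e2 : D.ctr k' X = E u := rfl
    have e3 : D.ctr m X = D.f₂ m m • C u := by
      simp only [C, LinearMap.smul_apply, LinearMap.comp_apply, smul_inv_smul₀ hmm]; rfl
    rw [hy, D.ctr_add, D.ctr_add, ctr_smul' H, ctr_smul' H, ctr_smul' H]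
    simp [map_sub, e1, e2, e3, D.ctr_ten, hkk, hkk', hk'k, hk'k', hkm, hk'm, hmk, hmk']
  -- commutators with the radical of the first stabiliser
  have key : ∀ a, ∃ r : F, ∀ u, (a * D.f₂ m m) • C u + τ a • A u = r • u := by
    intro a
    obtain ⟨c, n, hn, hnk, hnm, hnk'⟩ := heis H hkk hk'k' hkk' hk'k hkm hk'm hmm a
    set θ : (κ₁ → F) →ₗ[F] (κ₁ → F) := (a * D.f₂ m m) • C + τ a • A with hθ
    have hR : ∀ Y, ((n * z : GL ι F) : Matrix ι ι F) *ᵥ Y
        = (LinearMap.id + D.R θ k : (ι → F) →ₗ[F] (ι → F)) (((z * n : GL ι F) : Matrix ι ι F) *ᵥ Y) := by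
      refine mulVec_ext_frame H hkk hk'k' hkk' hk'k hkm hk'm hmm (g := n * z)
        (f := (LinearMap.id + D.R θ k) ∘ₗ ((z * n : GL ι F) : Matrix ι ι F).mulVecLin)
        (fun u => ?_) (fun u => ?_) (fun u => ?_)
      all_goals simp only [LinearMap.comp_apply, Matrix.mulVecLin_apply, mul_mulVec, LinearMap.add_apply,
        LinearMap.id_apply, TData.R_apply, hnk, hzk, hnm, hzm, hnk', hzk', mulVec_add, mulVec_sub, mulVec_smul]
      · simp [D.ctr_ten, hkk]
      · simp [D.ctr_ten, hkk, hmk]; abel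
      · simp [D.ctr_ten, hkk, hmk, hk'k, hθ]
        module
    have hin : InM M (D.R θ k) := ⟨n * z * (z * n)⁻¹,
      M.mul_mem (M.mul_mem hn hz) (M.inv_mem (M.mul_mem hz hn)), fun Y => by
        rw [mul_mulVec, hR, mulVec_inv]; rfl⟩
    obtain ⟨r, hr⟩ := hsc k hk hkk θ hin
    exact ⟨r, fun u => by rw [← hr]; rfl⟩
  obtain ⟨e, he⟩ : ∃ e, τ e ≠ e := by
    by_contra! h0; exact H.u₁.ne_refl (RingEquiv.ext h0)
  obtain ⟨r₁, hr₁⟩ := key 1
  obtain ⟨r₂, hr₂⟩ := key e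
  have hte : τ e - e ≠ 0 := sub_ne_zero.2 he
  have hA : ∀ u, A u = ((r₂ - e * r₁) / (τ e - e)) • u := fun u => by
    have h1 := hr₁ u
    have h2 := hr₂ u
    rw [map_one, one_smul, one_mul] at h1
    refine smul_right_injective _ hte ?_
    dsimp only
    rw [smul_smul, mul_div_cancel₀ _ hte]
    linear_combination (norm := module) h2 - e • h1
  set l := (r₂ - e * r₁) / (τ e - e) / D.f₂ m m with hl
  have hA' : ∀ u, A u = (l * D.f₂ m m) • u := fun u => by rw [hA, hl, div_mul_cancel₀ _ hmm]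
  obtain ⟨c, n, hn, hnk, hnm, hnk'⟩ := heis H hkk hk'k' hkk' hk'k hkm hk'm hmm l
  have hC : ∀ u, C u = -τ l • u := fun u => by
    refine D.f₁_ext fun v => ?_
    have h := H.iso z hz (D.ten u k') (D.ten v m)
    rw [hzk', hzm, hA', B_ten H, hk'm, zero_mul] at h
    simp only [H.uB.add_left, add_right H.uB, B_ten H, hk'm, hk'k, hmk, hkm, hkk, smul_right H.u₁, zero_mul,
      one_mul, add_zero, zero_add, map_mul, norm_fixed H.u₂] at h
    rw [H.u₁.smul_left]
    refine mul_left_cancel₀ hmm ?_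
    linear_combination h
  -- the rest is central
  have hR : ∀ Y, (z : Matrix ι ι F) *ᵥ Y
      = (LinearMap.id + D.R (E - c • LinearMap.id) k : (ι → F) →ₗ[F] (ι → F)) ((n : Matrix ι ι F) *ᵥ Y) := by
    refine mulVec_ext_frame H hkk hk'k' hkk' hk'k hkm hk'm hmm (g := z)
      (f := (LinearMap.id + D.R (E - c • LinearMap.id) k) ∘ₗ (n : Matrix ι ι F).mulVecLin)
      (fun u => ?_) (fun u => ?_) (fun u => ?_)
    all_goals simp only [LinearMap.comp_apply, Matrix.mulVecLin_apply, LinearMap.add_apply,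
      LinearMap.id_apply, TData.R_apply, hnk, hzk, hnm, hzm, hnk', hzk', hC, hA']
    · simp [D.ctr_ten, hkk]
    · simp [D.ctr_ten, hkk, hmk]
    · simp [D.ctr_ten, hkk, hmk, hk'k]
      module
  have hin : InM M (D.R (E - c • LinearMap.id) k) := ⟨z * n⁻¹, M.mul_mem hz (M.inv_mem hn), fun Y => by
    rw [mul_mulVec, hR, mulVec_inv]; rfl⟩
  obtain ⟨r, hr⟩ := hsc k hk hkk _ hin
  refine ⟨l, r + c, hA', fun u => ?_⟩
  have h1 := hr u
  simp only [LinearMap.sub_apply, LinearMap.smul_apply, LinearMap.id_apply, sub_eq_iff_eq_add] at h1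
  rw [hzk', hC, h1]
  simp only [map_add, map_smul, LinearMap.add_apply, LinearMap.smul_apply]
  module

set_option maxHeartbeats 1000000 in
/-- Fixing a member forces acting factorwise. -/
theorem ten_of_fix_frame {g : GL ι F} (hg : g ∈ M)
    (hst : ∀ u, (g : Matrix ι ι F) *ᵥ D.ten u k ∈ D.memb k) : Ten D g := by
  classical
  have hmk := orth_comm H.u₂ hkm
  have hmk' := orth_comm H.u₂ hk'm
  let G : (ι → F) →ₗ[F] (ι → F) := (g : Matrix ι ι F).mulVecLin
  -- the action on the member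
  let α₀ : (κ₁ → F) →ₗ[F] (κ₁ → F) := D.ctr k' ∘ₗ G ∘ₗ D.ten.flip k
  have hgk₀ : ∀ u, (g : Matrix ι ι F) *ᵥ D.ten u k = D.ten (α₀ u) k := fun u => by
    obtain ⟨v, hv⟩ := D.mem_memb.1 (hst u)
    have : α₀ u = v := by
      show D.ctr k' ((g : Matrix ι ι F) *ᵥ D.ten u k) = v
      rw [← hv, D.ctr_ten, hkk', one_smul]
    rw [this, hv]
  have hinj : Function.Injective α₀ := (injective_iff_map_eq_zero α₀).2 fun u hu => by
    refine D.ten_eq_zero hk (mulVec_injective g ?_)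
    simp [hgk₀, hu]
  let α := LinearEquiv.ofInjectiveEndo α₀ hinj
  have hgk : ∀ u, (g : Matrix ι ι F) *ᵥ D.ten u k = D.ten (α u) k := hgk₀
  -- conjugating the central root element
  let A₀ : (κ₁ → F) →ₗ[F] (κ₁ → F) := D.ctr k ∘ₗ ((g⁻¹ : GL ι F) : Matrix ι ι F).mulVecLin ∘ₗ D.ten.flip k'
  have hctr : ∀ Y, D.ctr k (((g⁻¹ : GL ι F) : Matrix ι ι F) *ᵥ Y) = A₀ (D.ctr k Y) := fun Y => by
    refine D.f₁_ext fun u => ?_
    show _ = D.f₁ (D.ctr k (((g⁻¹ : GL ι F) : Matrix ι ι F) *ᵥ D.ten (D.ctr k Y) k')) u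
    rw [← D.B_ctr, ← D.B_ctr, ← H.iso g hg, mulVec_inv, ← H.iso g hg (((g⁻¹ : GL ι F) : Matrix ι ι F) *ᵥ _),
      mulVec_inv, hgk, D.B_ctr, B_ten H, hk'k, one_mul]
  obtain ⟨ε, hε, hεσ⟩ := exists_traceZero H.u₁
  obtain ⟨x, hx, hxX⟩ := root H hεσ hkk
  have hin : InM M (D.R (ε • (α.toLinearMap ∘ₗ A₀)) k) := ⟨g * x * g⁻¹,
    M.mul_mem (M.mul_mem hg hx) (M.inv_mem hg), fun Y => by
      rw [mul_mulVec, mul_mulVec, hxX, mulVec_add, mulVec_inv, TData.R_apply, TData.R_apply, hctr, hgk]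
      simp⟩
  obtain ⟨c, hc⟩ := hsc k hk hkk _ hin
  set ν := c / ε with hν
  have hαA : ∀ v, α (A₀ v) = ν • v := fun v => by
    have h1 := hc v
    simp only [LinearMap.smul_apply, LinearMap.comp_apply, LinearEquiv.coe_coe] at h1
    rw [hν, div_eq_inv_mul, ← smul_smul, ← h1, inv_smul_smul₀ hε]
  have hsim : ∀ u v, D.f₁ (α u) (α v) = ν * D.f₁ u v := fun u v => by
    have h1 : A₀ (α u) = ν • u := α.injective (by rw [hαA, map_smul])
    have h2 : D.f₁ (A₀ (α u)) v = D.f₁ (α u) (α v) := by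
      have h3 := congrArg (fun X => D.f₁ X v) (hctr (D.ten (α u) k'))
      rw [D.ctr_ten, hk'k, one_smul] at h3
      rw [← h3, ← D.B_ctr, ← H.iso g hg, mulVec_inv, hgk, D.B_ctr, D.ctr_ten, hk'k, one_smul]
    rw [← h2, h1, H.u₁.smul_left]
  have hν0 : ν ≠ 0 := fun h0 => by
    obtain ⟨a, -, ha, -⟩ := exists_hyp₁ H
    refine ha (α.injective (Eq.trans (D.f₁_nondeg _ fun w => ?_) (map_zero α).symm))
    obtain ⟨w, rfl⟩ := α.surjective w
    rw [hsim, h0, zero_mul]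
  -- the middle
  let μ₀ : (κ₁ → F) →ₗ[F] (κ₁ → F) := (D.f₂ m m)⁻¹ • (D.ctr m ∘ₗ G ∘ₗ D.ten.flip m)
  let φ : (κ₁ → F) →ₗ[F] (κ₁ → F) := D.ctr k' ∘ₗ G ∘ₗ D.ten.flip m
  let ψ₁ : (κ₁ → F) →ₗ[F] (κ₁ → F) := (D.f₂ m m)⁻¹ • (D.ctr m ∘ₗ G ∘ₗ D.ten.flip k')
  let ψ₂ : (κ₁ → F) →ₗ[F] (κ₁ → F) := D.ctr k' ∘ₗ G ∘ₗ D.ten.flip k'
  have expand : ∀ X, X = D.ten (D.ctr k X) k' + D.ten ((D.f₂ m m)⁻¹ • D.ctr m X) m + D.ten (D.ctr k' X) k := by
    intro X
    refine sub_eq_zero.1 (D.ctr_ext _ fun y => ?_)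
    rw [decomp H hkk hk'k' hkk' hk'k hkm hk'm hmm y, D.ctr_add, D.ctr_add, ctr_smul' H, ctr_smul' H, ctr_smul' H]
    simp [map_sub, D.ctr_ten, hkk, hkk', hk'k, hk'k', hkm, hk'm, hmk, hmk', hmm, smul_smul]
  have hctrg : ∀ (u : κ₁ → F) z v, D.f₁ (D.ctr k ((g : Matrix ι ι F) *ᵥ D.ten u z)) (α v) = D.f₂ z k * D.f₁ u v :=
    fun u z v => by rw [← D.B_ctr, ← hgk, H.iso g hg, B_ten H]
  have hgm : ∀ u, (g : Matrix ι ι F) *ᵥ D.ten u m = D.ten (μ₀ u) m + D.ten (φ u) k := fun u => by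
    have h0 : D.ctr k ((g : Matrix ι ι F) *ᵥ D.ten u m) = 0 := D.f₁_nondeg _ fun v => by
      obtain ⟨v, rfl⟩ := α.surjective v
      rw [hctrg, hmk, zero_mul]
    conv_lhs => rw [expand ((g : Matrix ι ι F) *ᵥ D.ten u m)]
    rw [h0, map_zero, LinearMap.zero_apply, zero_add]
    rfl
  have hgk' : ∀ u, (g : Matrix ι ι F) *ᵥ D.ten u k'
      = D.ten (ν⁻¹ • α u) k' + D.ten (ψ₁ u) m + D.ten (ψ₂ u) k := fun u => by
    have h0 : D.ctr k ((g : Matrix ι ι F) *ᵥ D.ten u k') = ν⁻¹ • α u := D.f₁_ext fun v => by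
      obtain ⟨v, rfl⟩ := α.surjective v
      rw [hctrg, hk'k, one_mul, H.u₁.smul_left, hsim, inv_mul_cancel_left₀ hν0]
    conv_lhs => rw [expand ((g : Matrix ι ι F) *ᵥ D.ten u k')]
    rw [h0]
    rfl
  have hμinj : Function.Injective μ₀ := (injective_iff_map_eq_zero μ₀).2 fun u hu => by
    have h1 := hgm u
    rw [hu, map_zero, LinearMap.zero_apply, zero_add] at h1
    obtain ⟨v, hv⟩ := α.surjective (φ u)
    rw [← hv, ← hgk] at h1
    have h2 := congrArg (D.ctr m) (mulVec_injective g h1)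
    rw [D.ctr_ten, D.ctr_ten, hkm, zero_smul, smul_eq_zero] at h2
    exact h2.resolve_left hmm
  let μe := LinearEquiv.ofInjectiveEndo μ₀ hμinj
  -- conjugating the radical
  have key : ∀ a, ∃ l d c : F, (∀ u, (a * D.f₂ m m) • α u = (l * D.f₂ m m) • μ₀ u) ∧
      ∀ u, D.ten (φ u) (-τ a • k) + c • D.ten (α u) k
        = D.ten (ψ₁ u) ((l * D.f₂ m m) • k) + (ν⁻¹ * d) • D.ten (α u) k := by
    intro a
    obtain ⟨c, n, hn, hnk, hnm, hnk'⟩ := heis H hkk hk'k' hkk' hk'k hkm hk'm hmm a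
    set z := g * n * g⁻¹ with hz
    have hzg : ∀ Y, (z : Matrix ι ι F) *ᵥ ((g : Matrix ι ι F) *ᵥ Y) = (g : Matrix ι ι F) *ᵥ ((n : Matrix ι ι F) *ᵥ Y) :=
      fun Y => by simp only [hz, mul_mulVec, inv_mulVec]
    have hzk : ∀ u, (z : Matrix ι ι F) *ᵥ D.ten u k = D.ten u k := fun u => by
      obtain ⟨u, rfl⟩ := α.surjective u
      rw [← hgk, hzg, hnk]
    let A : (κ₁ → F) →ₗ[F] (κ₁ → F) := (a * D.f₂ m m) • (α.toLinearMap ∘ₗ μe.symm.toLinearMap)
    have hzm : ∀ u, (z : Matrix ι ι F) *ᵥ D.ten u m = D.ten u m + D.ten (A u) k := fun u => by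
      obtain ⟨u, rfl⟩ := μe.surjective u
      have h1 := hzg (D.ten u m)
      rw [hgm, hnm, mulVec_add, mulVec_add, mulVec_smul, hgm, hgk, hzk] at h1
      have h2 : A (μe u) = (a * D.f₂ m m) • α u := by simp [A]
      rw [h2, map_smul, LinearMap.smul_apply]
      show (z : Matrix ι ι F) *ᵥ D.ten (μ₀ u) m = D.ten (μ₀ u) m + _
      linear_combination (norm := module) h1
    obtain ⟨l, d, hA, hzk'⟩ := coef H hkk hk'k' hkk' hk'k hkm hk'm hmm hsc hk
      (M.mul_mem (M.mul_mem hg hn) (M.inv_mem hg)) hzk A hzm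
    have hAμ : ∀ u, (a * D.f₂ m m) • α u = (l * D.f₂ m m) • μ₀ u := fun u => by
      have h1 := hA (μe u)
      simp [A] at h1
      exact h1
    refine ⟨l, d, c, hAμ, fun u => ?_⟩
    have h1 := congrArg (D.ctr k') (hzg (D.ten u k'))
    rw [hgk', hnk', mulVec_add, mulVec_add, hzk', hzm, hzk, hA, mulVec_add, mulVec_sub, mulVec_smul,
      mulVec_smul, hgk', hgm, hgk] at h1
    simp only [map_add, map_sub, map_smul, LinearMap.smul_apply, LinearMap.add_apply, D.ctr_ten,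
      hkk', hk'k', hmk', zero_smul, one_smul, zero_add, smul_zero, sub_zero] at h1
    have h2 := congrArg (fun x => D.ten x k) h1
    simp only [map_add, map_sub, map_smul, LinearMap.smul_apply, LinearMap.add_apply, LinearMap.sub_apply] at h2
    simp only [map_smul]
    linear_combination (norm := module) -h2
  obtain ⟨l₁, d₁, c₁, hμ₁, hφ₁⟩ := key 1
  have hl₁ : l₁ ≠ 0 := fun h0 => by
    obtain ⟨u, -, hu, -⟩ := exists_hyp₁ H
    have h1 := hμ₁ u
    rw [h0, zero_mul, zero_smul, one_mul, smul_eq_zero] at h1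
    exact hu (α.injective ((h1.resolve_left hmm).trans (map_zero α).symm))
  have hμα : ∀ u, μ₀ u = l₁⁻¹ • α u := fun u => by
    have h1 := hμ₁ u
    rw [one_mul, mul_comm, ← smul_smul] at h1
    rw [smul_right_injective _ hmm h1, inv_smul_smul₀ hl₁]
  obtain ⟨e, he⟩ : ∃ e, τ e ≠ e := by
    by_contra! h0; exact H.u₁.ne_refl (RingEquiv.ext h0)
  obtain ⟨l₂, d₂, c₂, hμ₂, hφ₂⟩ := key e
  have hl₂ : l₂ = e * l₁ := by
    obtain ⟨u, -, hu, -⟩ := exists_hyp₁ H
    have h1 := hμ₂ u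
    rw [hμα, smul_smul] at h1
    have h2 := smul_left_injective F (fun h0 => hu (α.injective (h0.trans (map_zero α).symm))) h1
    field_simp at h2
    linear_combination -h2
  have hte : τ e - e ≠ 0 := sub_ne_zero.2 he
  obtain ⟨p, hp⟩ : ∃ p : F, ∀ u, φ u = p • α u := by
    refine ⟨((ν⁻¹ * d₁ - c₁) * e - (ν⁻¹ * d₂ - c₂)) / (τ e - e), fun u => D.ten_left_injective hk ?_⟩
    have h1 := hφ₁ u
    have h2 := hφ₂ u
    simp only [map_smul, map_one, hl₂, LinearMap.smul_apply] at h1 h2 ⊢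
    refine smul_right_injective _ hte ?_
    dsimp only
    rw [smul_smul, mul_div_cancel₀ _ hte]
    linear_combination (norm := module) e • h1 - h2
  obtain ⟨r, hr⟩ : ∃ r : F, ∀ u, ψ₁ u = r • α u := by
    refine ⟨(c₁ - ν⁻¹ * d₁ - p) / (l₁ * D.f₂ m m), fun u => D.ten_left_injective hk ?_⟩
    have h1 := hφ₁ u
    simp only [hp, map_smul, map_one, LinearMap.smul_apply] at h1 ⊢
    refine smul_right_injective _ (mul_ne_zero hl₁ hmm) ?_
    dsimp only
    rw [smul_smul, mul_div_cancel₀ _ (mul_ne_zero hl₁ hmm)]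
    linear_combination (norm := module) -h1
  -- the last coefficient
  set w := D.f₂ m m * (r * τ r) * ν with hwdef
  obtain ⟨s, hs⟩ := exists_trace H.u₁ (r := -w) (by
    have hντ : τ ν = ν := by
      obtain ⟨a, b, -, -, -, hab, hba⟩ := exists_hyp₁ H
      have h1 := H.u₁.herm (α a) (α b)
      rw [hsim, hsim, hab, hba, mul_one] at h1
      exact h1.symm
    rw [map_neg, hwdef, map_mul, map_mul, map_mul, H.u₁.involutive, norm_fixed H.u₂, hντ]; ring)
  let θ : (κ₁ → F) →ₗ[F] (κ₁ → F) := α.symm.toLinearMap ∘ₗ ψ₂ - s • LinearMap.id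
  have hψ : ∀ u, ψ₂ u = α (θ u) + s • α u := fun u => by simp [θ]
  have hskew : ∀ u v, D.f₁ (θ u) v + D.f₁ u (θ v) = 0 := fun u v => by
    have h := H.iso g hg (D.ten u k') (D.ten v k')
    rw [hgk', hgk', hr, hr, hψ, hψ, B_ten H, hk'k', zero_mul] at h
    simp only [H.uB.add_left, add_right H.uB, B_ten H, hk'k', hk'm, hmk', hkk', hk'k, hkm, hmk, hkk, hsim,
      H.u₁.smul_left, smul_right H.u₁, H.u₁.add_left, add_right H.u₁, map_inv₀, zero_mul, one_mul,
      add_zero, zero_add] at h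
    have hντ : τ ν = ν := by
      obtain ⟨a, b, -, -, -, hab, hba⟩ := exists_hyp₁ H
      have h1 := H.u₁.herm (α a) (α b)
      rw [hsim, hsim, hab, hba, mul_one] at h1
      exact h1.symm
    rw [hντ] at h
    field_simp at h
    linear_combination h - D.f₁ u v * hs
  set R₀ := D.R θ k with hR₀
  have hR2 : ∀ X, R₀ (R₀ X) = 0 := fun X => TData.R_sq D hkk X
  let N : Matrix ι ι F := LinearMap.toMatrix' R₀
  have hN : ∀ X, N *ᵥ X = R₀ X := fun X => by rw [← Matrix.toLin'_apply]; simp [N]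
  have hNN : N * N = 0 := Matrix.ext_iff_mulVec.2 fun X => by
    rw [← mulVec_mulVec, hN, hN, hR2, Matrix.zero_mulVec]
  let x' : GL ι F := ⟨1 + N, 1 - N, by noncomm_ring; simp [hNN],
    by noncomm_ring; simp [hNN]⟩
  have hx' : ∀ X, (x' : Matrix ι ι F) *ᵥ X = X + R₀ X := fun X => by
    show (1 + N) *ᵥ X = _
    rw [add_mulVec, one_mulVec, hN]
  have hx'i : Iso D.B x' := fun X Y => by
    rw [hx', hx', H.uB.add_left, add_right H.uB, add_right H.uB]
    simp only [hR₀, TData.R_apply, D.B_ctr, B_ten_left H, D.ctr_ten, hkk, zero_smul, zero_left H.u₁]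
    rw [← H.u₁.herm]
    linear_combination hskew (D.ctr k X) (D.ctr k Y)
  have hx's : x' ∈ Cfsg.Geo.specialLinear ι F := by
    rw [CfsgLib.PseudoRefl.mem_specialLinear_iff]
    obtain ⟨P, hP⟩ := CharP.exists F
    haveI := hP
    haveI : Fact P.Prime := ⟨(CharP.char_is_prime_or_zero F P).resolve_right fun h0 => by
      subst h0
      haveI := CharP.charP_to_charZero F
      exact not_finite F⟩
    have hpow : ∀ i : ℕ, (1 + N) ^ i = 1 + (i : F) • N := fun i => by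
      induction i with
      | zero => simp
      | succ i ih =>
        rw [pow_succ, ih, mul_add, mul_one, add_mul, one_mul, smul_mul_assoc, hNN, smul_zero, add_zero,
          Nat.cast_succ, add_smul, one_smul, add_assoc]
    have h1 : ((1 + N).det) ^ P = 1 := by
      rw [← Matrix.det_pow, hpow, CharP.cast_eq_zero, zero_smul, add_zero, Matrix.det_one]
    exact frobenius_inj F P (by simpa [frobenius_def] using h1)
  set T₀ := g * x'⁻¹ with hT₀
  have hT : Ten D T₀ := by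
    refine ⟨α, LinearMap.id + ((upair H.u₂ k).smulRight (ν⁻¹ • k' + r • m + s • k - k'))
      + ((D.f₂ m m)⁻¹ • upair H.u₂ m).smulRight (l₁⁻¹ • m + p • k - m), fun u z => ?_⟩
    have hrest : ∀ Y, (T₀ : Matrix ι ι F) *ᵥ Y = (g : Matrix ι ι F) *ᵥ (Y - R₀ Y) := fun Y => by
      rw [hT₀, mul_mulVec]
      congr 1
      exact mulVec_injective x' (by dsimp only; rw [mulVec_inv, hx', map_sub, hR2]; abel)
    set β : (κ₂ → F) →ₗ[F] (κ₂ → F) := LinearMap.id + ((upair H.u₂ k).smulRight (ν⁻¹ • k' + r • m + s • k - k'))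
      + ((D.f₂ m m)⁻¹ • upair H.u₂ m).smulRight (l₁⁻¹ • m + p • k - m) with hβ
    have b1 : β k = k := by simp [hβ, hkk, hkm]
    have b2 : β m = l₁⁻¹ • m + p • k := by simp [hβ, hmk, hmm]
    have b3 : β k' = ν⁻¹ • k' + r • m + s • k := by simp [hβ, hk'k, hk'm]
    rw [decomp H hkk hk'k' hkk' hk'k hkm hk'm hmm z]
    simp only [map_add, map_smul, mulVec_add, mulVec_smul, hrest, hR₀, TData.R_apply, D.ctr_ten, hkk, hmk,
      hk'k, zero_smul, one_smul, map_zero, LinearMap.zero_apply, sub_zero, mulVec_sub, hgk, hgm, hgk', hμα, hp,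
      hr, hψ, LinearMap.add_apply, LinearMap.smul_apply, b1, b2, b3, smul_add]
    simp only [mulVec_zero, smul_zero]
    module
  have hT₀M : T₀ ∈ M := H.full _ ((Cfsg.Geo.specialLinear ι F).mul_mem (H.le_sl hg)
    ((Cfsg.Geo.specialLinear ι F).inv_mem hx's)) ((H.iso g hg).mul hx'i.inv) hT
  have hx'M : x' ∈ M := by
    have h1 := M.mul_mem (M.inv_mem hT₀M) hg
    rwa [hT₀, _root_.mul_inv_rev, inv_inv, mul_assoc, inv_mul_cancel, mul_one] at h1
  obtain ⟨t, ht⟩ := hsc k hk hkk θ ⟨x', hx'M, hx'⟩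
  have hxT : Ten D x' := by
    refine ⟨LinearEquiv.refl F _, LinearMap.id + (t • upair H.u₂ k).smulRight k, fun u z => ?_⟩
    rw [hx', hR₀, TData.R_apply, D.ctr_ten, map_smul, ht]
    simp [smul_smul, mul_comm]
  have hgT := Ten.mul' H hT hxT
  rwa [hT₀, inv_mul_cancel_right] at hgT

end CfsgLib.SUSix96.Tensor23
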